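import Cfsg.Agent.Class.ONotMax
import Cfsg.Agent.Class.ONonMax
import Cfsg.Agent.Class.OMaxSubfield
import Cfsg.Agent.Class.AL.Proper
import Cfsg.Agent.Known.QuadSum

/-!
Tools for the list of maximal subgroups of the small orthogonal groups: `Ω` lies in no geometric
subgroup, and the type of an orthogonal sum.
-/

set_option autoImplicit false

namespace Cfsg.Lib.Class.AO

open QuadraticMap Module Orth OMax

theorem false_of_lt {X : Type*} [Group X] {G H M : Subgroup X} (hH : Geo.IsMaximalIn G H)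
    (hM : H ≤ M) (h : ∃ K, M ⊓ G < K ∧ K < G) : False := by
  obtain ⟨K, h1, h2⟩ := h
  have h3 : H ≤ M ⊓ G := le_inf hM hH.1.le
  rcases hH.2 K (h3.trans h1.le) h2.le with h | h
  · exact (h3.trans_lt h1).ne' h
  · exact h2.ne h

variable {F V : Type*} [Field F] [AddCommGroup V] [Module F V] {Q : QuadraticForm F V}

section Trans

variable [FiniteDimensional F V]

theorem exists_Om_apply_of_orth (hQ : (polarBilin Q).Nondegenerate) (hn : 5 ≤ finrank F V)
    {u w : V} (hu0 : u ≠ 0) (huw : w ∉ Submodule.span F {u}) (hu : Q u = 0) (hw : Q w = 0)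
    (h : polar Q u w = 0) : ∃ g ∈ commutator (O Q), g.1 u = w := by
  have hli : LinearIndependent F ![u, w] := by
    rw [LinearIndependent.pair_iff' hu0]
    exact fun a ha => huw (ha ▸ Submodule.smul_mem _ _ (Submodule.mem_span_singleton_self u))
  obtain ⟨z, h1, h2⟩ := exists_polar_pair hQ hli 1 1
  have a1 : polar Q (z - Q z • u) u = 1 := by qsimp; rw [pc h1, hu]; ring
  have a2 : polar Q (z - Q z • u) w = 1 := by qsimp; rw [pc h2, h]; ring
  exact ⟨_, eich_mem_Om hQ hn _ _, (eich_apply_eq (p := z - Q z • u)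
    (by qsimp; rw [pc h1, hu]; ring) (hu.trans hw.symm) (a1.trans a2.symm)
    (by rw [a1]; exact one_ne_zero)).2⟩

/-- `Ω` is transitive on the non-zero singular vectors. -/
theorem exists_Om_apply_eq [Finite F] (hQ : (polarBilin Q).Nondegenerate) (hn : 7 ≤ finrank F V)
    {u w : V} (hu0 : u ≠ 0) (hw0 : w ≠ 0) (hu : Q u = 0) (hw : Q w = 0) :
    ∃ g ∈ commutator (O Q), g.1 u = w := by
  have h1 := finrank_orth hQ (Submodule.span F {u, w})
  have h2 := Orth.finrank_span_pair_le (F := F) u w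
  obtain ⟨x, hx, hx1, hx0⟩ := exists_singular_notMem Q (S := orth Q (Submodule.span F {u, w}))
    (T := Submodule.span F {u, w}) (by omega)
  obtain ⟨a1, a2⟩ := mem_orth_pair.1 hx
  obtain ⟨g, hg, hgu⟩ := exists_Om_apply_of_orth hQ (by omega) hu0
    (fun h => hx1 (Submodule.span_mono (by simp) h)) hu hx0 a1
  obtain ⟨k, hk, hkw⟩ := exists_Om_apply_of_orth hQ (by omega) hw0
    (fun h => hx1 (Submodule.span_mono (by simp) h)) hw hx0 a2
  exact ⟨k⁻¹ * g, mul_mem (inv_mem hk) hg, by rw [O_mul_apply, hgu, ← hkw, O_inv_apply]⟩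

end Trans

section Types

theorem isOSum_pi_succ {t : ℕ} {M : Fin (t + 1) → Type*} [∀ i, AddCommGroup (M i)]
    [∀ i, Module F (M i)] (q : ∀ i, QuadraticForm F (M i)) :
    Known.IsOSum (QuadraticMap.pi q) (q 0) (QuadraticMap.pi fun i : Fin t => q i.succ)
      (Fin.consLinearEquiv F M) := fun a b => by
  simp [QuadraticMap.pi_apply, Fin.sum_univ_succ]

theorem nondegenerate_pi {t : ℕ} {M : Fin t → Type*} [∀ i, AddCommGroup (M i)]
    [∀ i, Module F (M i)] {q : ∀ i, QuadraticForm F (M i)}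
    (hq : ∀ i, (polarBilin (q i)).Nondegenerate) :
    (polarBilin (QuadraticMap.pi q)).Nondegenerate := by
  induction t with
  | zero => exact polarBilin_nondegenerate_of _ fun a _ => Subsingleton.elim _ _
  | succ t ih => exact (isOSum_pi_succ q).nondegenerate (hq 0) (ih fun i => hq i.succ)

theorem isPlus_pi_iff [Finite F] {t : ℕ} {M : Fin t → Type*} [∀ i, AddCommGroup (M i)]
    [∀ i, Module F (M i)] [∀ i, FiniteDimensional F (M i)] {q : ∀ i, QuadraticForm F (M i)}
    (hq : ∀ i, (polarBilin (q i)).Nondegenerate) (he : ∀ i, Even (finrank F (M i))) {p : Prop}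
    (hp : ∀ i, Known.IsPlus (q i) ↔ p) : Known.IsPlus (QuadraticMap.pi q) ↔ (Even t ∨ p) := by
  induction t with
  | zero => exact iff_of_true ⟨⊥, by simp, by simp [finrank_pi_fintype]⟩ (by simp)
  | succ t ih =>
    rw [(isOSum_pi_succ q).isPlus_iff (nondegenerate_pi hq) (he 0) (by
      rw [finrank_pi_fintype]; exact Finset.even_sum _ fun i _ => he _), hp,
      ih (fun i => hq _) (fun i => he _) (fun i => hp _), Nat.even_add_one]
    tauto

theorem sqEq_disc_pi {t : ℕ} {M : Fin t → Type*} [∀ i, AddCommGroup (M i)]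
    [∀ i, Module F (M i)] [∀ i, FiniteDimensional F (M i)] (q : ∀ i, QuadraticForm F (M i)) {d : F}
    (hd : ∀ i, Known.SqEq (Known.disc (q i)) d) :
    Known.SqEq (Known.disc (QuadraticMap.pi q)) (d ^ t) := by
  induction t with
  | zero =>
    refine (Known.sqEq_disc _ (Basis.empty (ι := Fin 0) _)).trans (Known.SqEq.of_eq ?_)
    simp
  | succ t ih =>
    rw [pow_succ']
    exact (isOSum_pi_succ q).sqEq_disc.trans ((hd 0).mul (ih _ fun i => hd _))

variable {t : ℕ} {D : Fin t → Submodule F V}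

theorem Q_sum_of_orth {τ : Type*} (s : Finset τ) {x : τ → V}
    (h : ∀ i j, i ≠ j → polar Q (x i) (x j) = 0) : Q (∑ i ∈ s, x i) = ∑ i ∈ s, Q (x i) := by
  classical
  induction s using Finset.induction_on with
  | empty => simp
  | insert a s ha ih =>
    rw [Finset.sum_insert ha, Finset.sum_insert ha, Q_add, ih]
    have : polar Q (x a) (∑ i ∈ s, x i) = 0 := by
      change polarBilin Q (x a) _ = 0
      rw [map_sum]
      exact Finset.sum_eq_zero fun i hi => h a i (by rintro rfl; exact ha hi)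
    rw [this, add_zero]

theorem exists_equiv_pi (h : PerpFam Q D) (htop : iSup D = ⊤) :
    ∃ e : (∀ i, D i) ≃ₗ[F] V, ∀ x, Q (e x) = QuadraticMap.pi (fun i => Q.restrict (D i)) x := by
  let φ : (∀ i, D i) →ₗ[F] V := ∑ i, (D i).subtype ∘ₗ LinearMap.proj i
  have hφ : ∀ x, φ x = ∑ i, (x i : V) := fun x => by simp [φ]
  have hQ : ∀ x, Q (φ x) = QuadraticMap.pi (fun i => Q.restrict (D i)) x := fun x => by
    rw [hφ, Q_sum_of_orth _ fun i j hij => h.perp i j hij _ (x i).2 _ (x j).2]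
    simp [QuadraticMap.pi_apply]
  refine ⟨LinearEquiv.ofBijective φ ⟨?_, ?_⟩, hQ⟩
  · refine (injective_iff_map_eq_zero _).2 fun x hx => ?_
    refine Known.eq_zero_of_polar (nondegenerate_pi fun i => restrict_nondeg_iff.2 (h.nondeg i)) fun y => ?_
    rw [← Known.polar_map_of_map φ hQ, hx, polar_zero_left]
  · rw [← LinearMap.range_eq_top, eq_top_iff, ← htop]
    refine iSup_le fun i v hv => ⟨Pi.single i ⟨v, hv⟩, ?_⟩
    rw [hφ, Finset.sum_eq_single i (fun j _ hj => by simp [hj]) (by simp)]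
    simp

variable [FiniteDimensional F V]

theorem isPlus_iff_of_perpFam [Finite F] (h : PerpFam Q D) (htop : iSup D = ⊤)
    (he : ∀ i, Even (finrank F (D i))) {p : Prop} (hp : ∀ i, Known.IsPlus (Q.restrict (D i)) ↔ p) :
    Known.IsPlus Q ↔ (Even t ∨ p) := by
  obtain ⟨e, hQ⟩ := exists_equiv_pi h htop
  rw [Known.isPlus_congr e one_ne_zero (fun v => by rw [hQ, one_mul])]
  exact isPlus_pi_iff (fun i => restrict_nondeg_iff.2 (h.nondeg i)) he hp

theorem sqEq_disc_of_perpFam (h : PerpFam Q D) (htop : iSup D = ⊤) {d : F}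
    (hd : ∀ i, Known.SqEq (Known.disc (Q.restrict (D i))) d) :
    Known.SqEq (Known.disc Q) (d ^ t) := by
  obtain ⟨e, hQ⟩ := exists_equiv_pi h htop
  exact (Known.sqEq_disc_of_equiv e hQ).trans (sqEq_disc_pi _ hd)

theorem isPlus_iff_orth [Finite F] (hQ : (polarBilin Q).Nondegenerate) {W : Submodule F V}
    (hW : Disjoint W (orth Q W)) (h1 : Even (finrank F W)) (h2 : Even (finrank F V)) :
    Known.IsPlus Q ↔ (Known.IsPlus (Q.restrict W) ↔ Known.IsPlus (Q.restrict (orth Q W))) :=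
  (Known.isOSum_orth hQ hW).isPlus_iff hQ h1 (by
    have := finrank_orth hQ W
    rw [Nat.even_iff] at *
    omega)

omit [FiniteDimensional F V] in
theorem isPlus_restrict_iff {W : Submodule F V} : Known.IsPlus (Q.restrict W) ↔
    ∃ U ≤ W, (∀ u ∈ U, Q u = 0) ∧ 2 * finrank F U = finrank F W := by
  constructor
  · rintro ⟨U, hU, hd⟩
    refine ⟨U.map W.subtype, Submodule.map_subtype_le _ _, ?_, by
      rwa [Submodule.finrank_map_subtype_eq]⟩
    rintro _ ⟨u, hu, rfl⟩
    exact hU u hu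
  · rintro ⟨U, hUW, hU, hd⟩
    exact ⟨U.comap W.subtype, fun u hu => hU _ hu, by
      rwa [(Submodule.comapSubtypeEquivOfLe hUW).finrank_eq]⟩

/-- A non-degenerate subspace of odd dimension forces odd characteristic. -/
theorem two_ne_zero_of_odd {W : Submodule F V} (hW : Disjoint W (orth Q W))
    (h : Odd (finrank F W)) : (2 : F) ≠ 0 := fun h2 =>
  Nat.not_even_iff_odd.2 h (even_finrank_of_isAlt (restrict_nondeg_iff.2 hW) fun x => by
    change polar Q x.1 x.1 = 0
    rw [polar_self', h2, zero_mul])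

end Types

section Mat

open Cfsg.Geo Matrix
open scoped MatrixGroups

variable {ι : Type} [Fintype ι] [DecidableEq ι] {Q : QuadraticForm F (ι → F)}

theorem toGL_mem {g : O Q} (hg : g ∈ commutator (O Q)) : toGL Q g ∈ omegaGL Q :=
  mem_omegaGL_iff.2 ⟨g, hg, rfl⟩

theorem toGL_mulVec (g : O Q) (v : ι → F) : (toGL Q g : Matrix ι ι F) *ᵥ v = g.1 v := by
  rw [← glLin_apply, glLin_toGL]

theorem omegaGL_le (Q : (ι → F) → F) : omegaGL Q ≤ isometryGroup F Q := Subgroup.map_subtype_le _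

theorem not_le_of_exists {M : Subgroup (GL ι F)} {N : Subgroup ((ι → F) ≃ₗ[F] (ι → F))}
    (hM : ∀ g ∈ M, glLin ι F g ∈ N) (h : ∃ g ∈ commutator (O Q), g.1 ∉ N) : ¬ omegaGL Q ≤ M := by
  obtain ⟨g, hg, hN⟩ := h
  exact fun hle => hN (glLin_toGL g ▸ hM _ (hle (toGL_mem hg)))

omit [DecidableEq ι] in
theorem isPlusTypeOn_iff {W : Submodule F (ι → F)} :
    IsPlusTypeOn Q W ↔ Known.IsPlus (Q.restrict W) := isPlus_restrict_iff.symm

variable [Finite F]

theorem not_le_of_set (hQ : (polarBilin Q).Nondegenerate) (hn : 7 ≤ Fintype.card ι)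
    {M : Subgroup (GL ι F)} {S : Set (ι → F)}
    (hS : ∀ g ∈ M, ∀ v ∈ S, (g : Matrix ι ι F) *ᵥ v ∈ S) {u w : ι → F} (hu : u ∈ S) (hu0 : u ≠ 0)
    (hu1 : Q u = 0) (hw : w ∉ S) (hw0 : w ≠ 0) (hw1 : Q w = 0) : ¬ omegaGL Q ≤ M := fun hle => by
  obtain ⟨g, hg, h⟩ := exists_Om_apply_eq hQ (by simpa) hu0 hw0 hu1 hw1
  have := hS _ (hle (toGL_mem hg)) u hu
  rw [toGL_mulVec, h] at this
  exact hw this

theorem not_le_subspace (hQ : (polarBilin Q).Nondegenerate) (hn : 5 ≤ Fintype.card ι)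
    {W : Submodule F (ι → F)} (h0 : W ≠ ⊥) (h1 : W ≠ ⊤) : ¬ omegaGL Q ≤ subspaceStabilizer W :=
  not_le_of_exists (fun g hg => (mem_subspaceStabilizer_iff_glLin W g).1 hg)
    (exists_not_stab hQ (by simpa) h0 h1)

theorem not_le_decomposition (hQ : (polarBilin Q).Nondegenerate) {t k : ℕ}
    {D : Fin t → Submodule F (ι → F)} (hD : IsMDecomposition k D) (hk : k + 4 ≤ Fintype.card ι) :
    ¬ omegaGL Q ≤ decompositionStabilizer D := by
  obtain ⟨p, hp⟩ := exists_isDecProj hD.indep hD.iSup_eq_top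
  have := hD.two_le
  obtain ⟨v, hv, hv0⟩ := AL.IsMDecomposition.exists_ne_zero hD ⟨0, by omega⟩
  exact not_le_of_exists (fun g hg => (mem_decompositionStabilizer_iff_glLin D g).1 hg)
    (exists_not_stabDec hQ hp ((Submodule.ne_bot_iff _).2 ⟨v, hv, hv0⟩)
      (by rw [hD.finrank_eq]; simpa))

end Mat

end Cfsg.Lib.Class.AO
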