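import Cfsg.Agent.Class.AO.Tens

/-!
Tensor decompositions of quadratic spaces in matrix form.
-/

set_option autoImplicit false

namespace Cfsg.Lib.Class.AO

open QuadraticMap Module Orth OMax Cfsg.Geo Matrix Asch
open scoped MatrixGroups Kronecker

variable {F : Type*} [Field F] {ι : Type} [Fintype ι] [DecidableEq ι]
  {Q : QuadraticForm F (ι → F)} {d k : ℕ}

/-- Pure tensors as a bilinear map. -/
def tb (e : ι ≃ Fin d × Fin k) (P : GL ι F) : (Fin d → F) →ₗ[F] (Fin k → F) →ₗ[F] (ι → F) :=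
  LinearMap.mk₂ F (fun x y => vec e P (ptv x y))
    (fun x x' y => by rw [← Asch.vec_add]; congr 1; ext p; simp [ptv, add_mul])
    (fun c x y => by rw [← Asch.vec_smul]; congr 1; ext p; simp [ptv, mul_assoc])
    (fun x y y' => by rw [← Asch.vec_add]; congr 1; ext p; simp [ptv, mul_add])
    (fun c x y => by rw [← Asch.vec_smul]; congr 1; ext p; simp [ptv, mul_left_comm])

theorem tb_apply (e : ι ≃ Fin d × Fin k) (P : GL ι F) (x : Fin d → F) (y : Fin k → F) :
    tb e P x y = vec e P (ptv x y) := rfl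

theorem eq_top_of_vec_single {κ : Type} [Fintype κ] [DecidableEq κ] (e : ι ≃ κ) (P : GL ι F)
    {S : Submodule F (ι → F)} (h : ∀ a, vec e P (Pi.single a 1) ∈ S) : S = ⊤ := by
  refine eq_top_iff.2 fun v _ => ?_
  obtain ⟨z, rfl⟩ := (vecEquiv e P).surjective v
  rw [pi_eq_sum_univ' z, map_sum]
  exact S.sum_mem fun a _ => by rw [map_smul]; exact S.smul_mem _ (h a)

theorem map₂_tb (e : ι ≃ Fin d × Fin k) (P : GL ι F) : Submodule.map₂ (tb e P) ⊤ ⊤ = ⊤ :=
  eq_top_of_vec_single e P fun ⟨a, b⟩ => by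
    have : (Pi.single (a, b) 1 : Fin d × Fin k → F) = ptv (Pi.single a 1) (Pi.single b 1) := by
      ext ⟨i, j⟩
      simp [ptv, Pi.single_apply, ite_and]
      split_ifs <;> rfl
    rw [this]
    exact Submodule.apply_mem_map₂ (tb e P) trivial trivial

theorem mem_tensorProductSubgroup_iff_glLin (e : ι ≃ Fin d × Fin k) (P : GL ι F) (g : GL ι F) :
    g ∈ tensorProductSubgroup d k e P ↔ glLin ι F g ∈ tensG (tb e P) := by
  rw [mem_tensorProductSubgroup]
  constructor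
  · rintro ⟨a, b, h⟩
    exact ⟨glLin _ F a, glLin _ F b, fun x y => by
      rw [glLin_apply, h, tb_apply, tr_mulVec, kronecker_mulVec_ptv]; rfl⟩
  · rintro ⟨a, b, h⟩
    obtain ⟨a, rfl⟩ := (glLin _ F).surjective a
    obtain ⟨b, rfl⟩ := (glLin _ F).surjective b
    refine ⟨a, b, Matrix.toLin'.injective (LinearMap.ext_on_range (v := fun p : _ × _ => tb e P p.1 p.2)
      ?_ fun p => ?_)⟩
    · rw [← map₂_tb e P, Submodule.map₂_eq_span_image2]
      congr 1
      ext v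
      simp
    · rw [toLin'_apply, toLin'_apply, ← glLin_apply, h, tb_apply, tb_apply, tr_mulVec,
        kronecker_mulVec_ptv]
      rfl

theorem card_eq_mul (e : ι ≃ Fin d × Fin k) : Fintype.card ι = d * k := by
  simpa using Fintype.card_congr e

theorem nondegenerate_smul_bilin {A : Type*} [AddCommGroup A] [Module F A]
    {f : LinearMap.BilinForm F A} (hf : f.Nondegenerate) {c : F} (hc : c ≠ 0) :
    (c • f).Nondegenerate :=
  ⟨fun x h => hf.1 x fun y => by simpa [hc] using h y,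
    fun x h => hf.2 x fun y => by simpa [hc] using h y⟩

variable {e : ι ≃ Fin d × Fin k} {P : GL ι F} {f₁ : (Fin d → F) → (Fin d → F) → F}
  {f₂ : (Fin k → F) → (Fin k → F) → F}

theorem exists_tens (b₁ : IsBilinearForm f₁) (n₁ : IsNondegenerateForm f₁) (b₂ : IsBilinearForm f₂)
    (n₂ : IsNondegenerateForm f₂) (h : IsTensorFormStructure id (polar Q) f₁ f₂ e P) :
    ∃ c : F, c ≠ 0 ∧ Tens Q (tb e P) (c • geoBilin b₁) (geoBilin b₂) := by
  obtain ⟨c, hc, h⟩ := h
  refine ⟨c, hc, fun x y x' y' => ?_, nondegenerate_smul_bilin (geoBilin_nondegenerate b₁ n₁) hc,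
    geoBilin_nondegenerate b₂ n₂, map₂_tb e P, by simp [card_eq_mul e]⟩
  have := formOfGram_kronecker_ptv (preSesq_of_isBilinearForm b₁) (preSesq_of_isBilinearForm b₂)
    x x' y y'
  exact (h (ptv x y) (ptv x' y')).trans ((congrArg (c * ·) this).trans (mul_assoc _ _ _).symm)

theorem Tens.exists_sym {V A B : Type*} [AddCommGroup V] [Module F V] [AddCommGroup A] [Module F A]
    [AddCommGroup B] [Module F B] {Q : QuadraticForm F V} {T : A →ₗ[F] B →ₗ[F] V}
    {f : LinearMap.BilinForm F A} {g : LinearMap.BilinForm F B} (h : Tens Q T f g)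
    (h2 : (2 : F) ≠ 0) (hf : ∀ x y, f x y = f y x) (hg : ∀ x y, g x y = g y x) :
    ∃ (QA : QuadraticForm F A) (QB : QuadraticForm F B),
      Tens Q T (polarBilin QA) (polarBilin QB) ∧ ∀ v, QB v = g v v := by
  have h1 : polarBilin (LinearMap.BilinMap.toQuadraticMap ((4⁻¹ : F) • f)) = (2⁻¹ : F) • f := by
    ext x y
    have h4 : (4 : F) ≠ 0 := by simpa [← show (2 : F) * 2 = 4 by norm_num] using h2
    simp only [polarBilin_apply_apply, LinearMap.BilinMap.polar_toQuadraticMap, LinearMap.smul_apply,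
      smul_eq_mul, hf y x]
    field_simp
    ring
  have h3 : polarBilin (LinearMap.BilinMap.toQuadraticMap g) = (2 : F) • g := by
    ext x y
    simp only [polarBilin_apply_apply, LinearMap.BilinMap.polar_toQuadraticMap, LinearMap.smul_apply,
      smul_eq_mul, hg y x]
    ring
  refine ⟨_, _, ⟨fun x y x' y' => ?_, h1 ▸ nondegenerate_smul_bilin h.ndf (inv_ne_zero h2),
    h3 ▸ nondegenerate_smul_bilin h.ndg h2, h.span, h.dim⟩, fun _ => rfl⟩
  rw [h1, h3, h.polar_eq]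
  simp only [LinearMap.smul_apply, smul_eq_mul]
  field_simp

theorem exists_tens_sym (h2 : (2 : F) ≠ 0) (h₁ : IsSymmetricForm f₁) (h₂ : IsSymmetricForm f₂)
    (h : IsTensorFormStructure id (polar Q) f₁ f₂ e P) :
    ∃ (QA : QuadraticForm F (Fin d → F)) (QB : QuadraticForm F (Fin k → F)),
      Tens Q (tb e P) (polarBilin QA) (polarBilin QB) ∧ ⇑QB = fun v => f₂ v v := by
  obtain ⟨c, -, h⟩ := exists_tens h₁.bilinear h₁.nondegenerate h₂.bilinear h₂.nondegenerate h
  obtain ⟨QA, QB, h, h'⟩ := h.exists_sym h2 (fun x y => congrArg (c * ·) (h₁.symm x y)) h₂.symm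
  exact ⟨QA, QB, h, funext h'⟩

/-- A symplectic factor of dimension two forces plus type. -/
theorem isPlus_of_pure {e : ι ≃ Fin 2 × Fin k} (h0 : ∀ x y, Q (vec e P (ptv x y)) = 0) :
    Known.IsPlus Q := by
  have h1 : (fun _ => 1 : Fin 2 → F) ≠ 0 := fun h => one_ne_zero (congrFun h 0)
  refine ⟨LinearMap.range (tb e P fun _ => 1), by rintro _ ⟨y, rfl⟩; exact h0 _ _, ?_⟩
  rw [LinearMap.finrank_range_of_inj ((injective_iff_map_eq_zero _).2 fun y hy =>
    by_contra fun h => ptv_ne_zero h1 h (vec_eq_zero hy))]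
  simp [card_eq_mul e]

section Fin

variable [Fintype F] (hQ : (polarBilin Q).Nondegenerate)
include hQ

theorem not_le_of_pure (hn : 7 ≤ Fintype.card ι) {A B : Type*} {T : A → B → ι → F}
    {M : Subgroup (GL ι F)} (hM : ∀ g ∈ M, ∀ x y, ∃ x' y', (g : Matrix ι ι F) *ᵥ T x y = T x' y')
    (h : (∃ x y, T x y ≠ 0 ∧ Q (T x y) = 0) ∧ ∃ w, w ≠ 0 ∧ Q w = 0 ∧ ∀ x y, w ≠ T x y) :
    ¬ omegaGL Q ≤ M := by
  obtain ⟨⟨x, y, h1, h2⟩, w, h3, h4, h5⟩ := h
  refine not_le_of_set hQ hn (S := {v | ∃ x y, v = T x y}) ?_ ⟨x, y, rfl⟩ h1 h2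
    (fun ⟨x, y, h⟩ => h5 x y h) h3 h4
  rintro g hg _ ⟨x, y, rfl⟩
  exact hM g hg x y

theorem not_le_tensor_sym (hq : Odd (Fintype.card F)) (hd : 3 ≤ d) (hk : 3 ≤ k)
    (h₁ : IsSymmetricForm f₁) (h₂ : IsSymmetricForm f₂)
    (h : IsTensorFormStructure id (polar Q) f₁ f₂ e P) :
    ¬ omegaGL Q ≤ tensorProductSubgroup d k e P := by
  have h2 : (2 : F) ≠ 0 := two_ne_zero_of_odd_card hq
  obtain ⟨QA, QB, h, -⟩ := exists_tens_sym h2 h₁ h₂ h
  exact not_le_of_pure hQ (by rw [card_eq_mul e]; nlinarith) (T := fun x y => tb e P x y)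
    (fun g hg => AL.tensor_mulVec_pure hg) (h.exists_singular h2 (by simpa) (by simpa))

theorem not_le_tensor_alt (hn : 7 ≤ Fintype.card ι) (hd : 2 ≤ d) (hk : 3 ≤ k)
    (h₁ : IsSymplecticForm f₁) (h₂ : IsSymplecticForm f₂)
    (h : IsTensorFormStructure id (polar Q) f₁ f₂ e P) (h0 : ∀ x y, Q (vec e P (ptv x y)) = 0) :
    ¬ omegaGL Q ≤ tensorProductSubgroup d k e P := by
  obtain ⟨c, -, h⟩ := exists_tens h₁.bilinear h₁.nondegenerate h₂.bilinear h₂.nondegenerate h
  obtain ⟨⟨x, y, h1⟩, h2⟩ := h.exists_singular_alt h₂.alternating h0 (by simpa) (by simpa)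
  exact not_le_of_pure hQ hn (T := fun x y => tb e P x y)
    (fun g hg => AL.tensor_mulVec_pure hg) ⟨⟨x, y, h1, h0 x y⟩, h2⟩

theorem exists_lt_tensor_three {e : ι ≃ Fin 3 × Fin k} {f₁ : (Fin 3 → F) → (Fin 3 → F) → F}
    (hq : Fintype.card F = 3) (hk : 3 ≤ k) (h₁ : IsSymmetricForm f₁) (h₂ : IsSymmetricForm f₂)
    (h : IsTensorFormStructure id (polar Q) f₁ f₂ e P) :
    ∃ K : Subgroup (GL ι F), tensorProductSubgroup 3 k e P ⊓ omegaGL Q < K ∧ K < omegaGL Q := by
  obtain ⟨QA, QB, h, -⟩ := exists_tens_sym (two_ne_zero_of_odd_card (by rw [hq]; decide)) h₁ h₂ h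
  exact (h.notMaxOm_three hQ hq (by simp) (by simpa)).exists_lt
    (mem_tensorProductSubgroup_iff_glLin e P)

theorem isPlus_tensor_iff {e : ι ≃ Fin 3 × Fin k} {f₁ : (Fin 3 → F) → (Fin 3 → F) → F}
    (hq : Odd (Fintype.card F)) (hk : Even k) (h₁ : IsSymmetricForm f₁) (h₂ : IsSymmetricForm f₂)
    (h : IsTensorFormStructure id (polar Q) f₁ f₂ e P) :
    IsPlusTypeOn Q ⊤ ↔ IsPlusTypeOn (fun v => f₂ v v) ⊤ := by
  have h2 : (2 : F) ≠ 0 := two_ne_zero_of_odd_card hq
  obtain ⟨QA, QB, h, h'⟩ := exists_tens_sym h2 h₁ h₂ h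
  rw [← h', isPlusTypeOn_top_iff, isPlusTypeOn_top_iff]
  exact h.isPlus_iff hQ h2 (by simp) (by simpa)

theorem exists_lt_tensor_four {e : ι ≃ Fin d × Fin 4} {f₂ : (Fin 4 → F) → (Fin 4 → F) → F}
    (hq : Odd (Fintype.card F)) (hd : 3 ≤ d) (hd' : Odd d) (h₁ : IsSymmetricForm f₁)
    (h₂ : IsSymmetricForm f₂) (h : IsTensorFormStructure id (polar Q) f₁ f₂ e P)
    (hp : IsPlusTypeOn (fun v => f₂ v v) ⊤) :
    ∃ K : Subgroup (GL ι F), tensorProductSubgroup d 4 e P ⊓ omegaGL Q < K ∧ K < omegaGL Q := by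
  have h2 : (2 : F) ≠ 0 := two_ne_zero_of_odd_card hq
  obtain ⟨QA, QB, h, h'⟩ := exists_tens_sym h2 h₁ h₂ h
  rw [← h', isPlusTypeOn_top_iff] at hp
  exact (h.notMaxOm_four hQ h2 (by simpa) (by simpa) (by simp) hp).exists_lt
    (mem_tensorProductSubgroup_iff_glLin e P)

theorem exists_lt_tensor_two {e : ι ≃ Fin 2 × Fin k} {f₁ : (Fin 2 → F) → (Fin 2 → F) → F}
    (hq : Fintype.card F = 2) (hk : 3 ≤ k) (h₁ : IsSymplecticForm f₁) (h₂ : IsSymplecticForm f₂)
    (h : IsTensorFormStructure id (polar Q) f₁ f₂ e P) (h0 : ∀ x y, Q (vec e P (ptv x y)) = 0) :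
    ∃ K : Subgroup (GL ι F), tensorProductSubgroup 2 k e P ⊓ omegaGL Q < K ∧ K < omegaGL Q := by
  obtain ⟨c, -, h⟩ := exists_tens h₁.bilinear h₁.nondegenerate h₂.bilinear h₂.nondegenerate h
  exact (h.notMaxOm_two hQ hq (fun x => by simp [h₁.alternating]) h₂.alternating h0 (by simp)
    (by simpa)).exists_lt (mem_tensorProductSubgroup_iff_glLin e P)

theorem not_le_wreath_two {e : ι ≃ (Fin 2 → Fin k)} {f : (Fin k → F) → (Fin k → F) → F}
    (hq : Odd (Fintype.card F)) (hk : 3 ≤ k) (hf : IsSymmetricForm f)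
    (h : IsTensorPowerFormStructure id (polar Q) f e P) :
    ¬ omegaGL Q ≤ tensorWreathSubgroup k 2 e P := by
  have hv : ∀ x : Fin 2 → Fin k → F, vec e P (ptw x) =
      tb (e.trans (finTwoArrowEquiv _)) P (x 0) (x 1) := fun x => by
    rw [tb_apply, Asch.vec, Asch.vec]
    congr 1
    ext i
    simp [ptw, ptv]
  obtain ⟨c, hc, h⟩ := IsTensorPowerFormStructure.ptw (σ := RingEquiv.refl F)
    (preSesq_of_isBilinearForm hf.bilinear) h
  have H : Tens Q (tb (e.trans (finTwoArrowEquiv _)) P) (c • geoBilin hf.bilinear)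
      (geoBilin hf.bilinear) := ⟨fun x y x' y' => by
    have := h ![x, y] ![x', y']
    rw [hv, hv] at this
    simpa [mul_assoc] using this, nondegenerate_smul_bilin
      (geoBilin_nondegenerate _ hf.nondegenerate) hc, geoBilin_nondegenerate _ hf.nondegenerate,
      map₂_tb _ P, by simp [card_eq_mul (e.trans (finTwoArrowEquiv _))]⟩
  have h2 : (2 : F) ≠ 0 := two_ne_zero_of_odd_card hq
  obtain ⟨QA, QB, H, -⟩ := H.exists_sym h2 (fun x y => congrArg (c * ·) (hf.symm x y)) hf.symm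
  refine not_le_of_pure hQ (by rw [card_eq_mul (e.trans (finTwoArrowEquiv _))]; nlinarith)
    (T := fun x y => tb (e.trans (finTwoArrowEquiv _)) P x y)
    (fun g hg x y => ?_) (H.exists_singular h2 (by simpa) (by simpa))
  obtain ⟨z, hz⟩ := AL.wreath_mulVec_pure hg ![x, y]
  rw [hv, hv] at hz
  exact ⟨_, _, hz⟩

end Fin

/-- The third tensor power of a symplectic plane has plus type. -/
theorem isPlus_of_pow {e : ι ≃ (Fin 3 → Fin 2)} {f : (Fin 2 → F) → (Fin 2 → F) → F}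
    (hf : IsSymplecticForm f) (h : IsTensorPowerFormStructure id (polar Q) f e P)
    (h0 : ∀ x, Q (vec e P (ptw x)) = 0) : Known.IsPlus Q := by
  obtain ⟨c, -, h⟩ := IsTensorPowerFormStructure.ptw (σ := RingEquiv.refl F)
    (preSesq_of_isBilinearForm hf.bilinear) h
  have h1 : ∀ a : Fin 3 → Fin 2, (Pi.single a 1 : (Fin 3 → Fin 2) → F) =
      ptw fun i => Pi.single (a i) 1 := fun a => by
    ext b
    simp only [ptw, Pi.single_apply, Finset.prod_boole, Finset.mem_univ, forall_const, funext_iff]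
  let v : {a : Fin 3 → Fin 2 // a 0 = 0} → ι → F := fun a => vec e P (Pi.single a.1 1)
  have hv : LinearIndependent F v := by
    convert ((Pi.basisFun F _).map (vecEquiv e P)).linearIndependent.comp _
      (Subtype.val_injective (p := fun a : Fin 3 → Fin 2 => a 0 = 0)) using 1
    ext1 a
    simp only [Function.comp_apply, Basis.map_apply, Pi.basisFun_apply]
    rfl
  refine ⟨Submodule.span F (Set.range v), singular_span ?_ ?_, ?_⟩
  · rintro _ ⟨a, rfl⟩
    simp only [v, h1, h0]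
  · rintro _ ⟨a, rfl⟩ _ ⟨b, rfl⟩
    simp only [v, h1, h]
    rw [Finset.prod_eq_zero (Finset.mem_univ 0) (by rw [a.2, b.2, hf.alternating]), mul_zero]
  · rw [finrank_span_eq_card hv, finrank_fintype_fun_eq_card, Fintype.card_congr e]
    decide

end Cfsg.Lib.Class.AO
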