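import Cfsg.Agent.Class.AO.Field10
import Cfsg.Agent.Class.AO.TensMat
import Cfsg.Agent.Class.Asch.Orth

/-!
The alternatives for a maximal subgroup of an orthogonal group in dimension at least seven.
-/

set_option autoImplicit false

namespace Cfsg.Lib.Class.AO

open QuadraticMap Module Orth OMax Cfsg.Geo Matrix Asch
open scoped MatrixGroups

variable {F : Type*} [Field F] [Fintype F] {ι : Type} [Fintype ι] [DecidableEq ι]
  {Q : (ι → F) → F} {H : Subgroup (GL ι F)}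

theorem isPlusTypeOn_top (hQ : IsNondegenerateQuadraticForm Q) :
    IsPlusTypeOn Q ⊤ ↔ Known.IsPlus (geoQuad hQ) :=
  ⟨fun ⟨U, _, h1, h2⟩ => ⟨U, h1, by rwa [finrank_top] at h2⟩,
    fun ⟨U, h1, h2⟩ => ⟨U, le_top, h1, by rwa [finrank_top]⟩⟩

section Dec

variable {t k : ℕ} {D : Fin t → Submodule F (ι → F)}

theorem dec_even (hQ : IsNondegenerateQuadraticForm Q) (hD : IsOrthogonalMDecomposition Q k D)
    (hk : Even k) : ((∀ i, IsPlusTypeOn Q (D i)) ∧ IsPlusTypeOn Q ⊤) ∨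
      ((∀ i, ¬ IsPlusTypeOn Q (D i)) ∧ (IsPlusTypeOn Q ⊤ ↔ Even t)) := by
  let j : Fin t := ⟨0, by have := hD.decomp.decomp.two_le; omega⟩
  have h1 : ∀ i, Known.IsPlus ((geoQuad hQ).restrict (D i)) ↔ IsPlusTypeOn Q (D j) := fun i => by
    obtain ⟨e, he⟩ := hD.isometric j i
    exact (Known.isPlus_congr (Q := (geoQuad hQ).restrict (D j)) e one_ne_zero fun v =>
      (he v).trans (one_mul _).symm).trans (isPlusTypeOn_iff (Q := geoQuad hQ)).symm
  have h2 := isPlus_iff_of_perpFam (perpFam_of (Q := geoQuad hQ) hD) hD.decomp.decomp.iSup_eq_top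
    (fun i => (hD.decomp.decomp.finrank_eq i).symm ▸ hk) h1
  have h3 := fun i => (isPlusTypeOn_iff (Q := geoQuad hQ)).trans (h1 i)
  rw [← isPlusTypeOn_top hQ] at h2
  by_cases h : IsPlusTypeOn Q (D j)
  · exact Or.inl ⟨fun i => (h3 i).2 h, h2.2 (Or.inr h)⟩
  · exact Or.inr ⟨fun i hi => h ((h3 i).1 hi), h2.trans (or_iff_left h)⟩

theorem odd_of_nondeg (hQ : IsNondegenerateQuadraticForm Q) {W : Submodule F (ι → F)}
    (hW : IsNondegenerateOn (polar Q) W) (h : Odd (finrank F W)) : Odd (Fintype.card F) :=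
  odd_card_of_two_ne_zero (two_ne_zero_of_odd
    (disjoint_orth_of_isNondegenerateOn (Q := geoQuad hQ) hW) h)

theorem isPlus_iff_of_disc (hQ : IsNondegenerateQuadraticForm Q) (hq : Odd (Fintype.card F))
    {m : ℕ} (hm : Fintype.card ι = 2 * m) (h : IsSquare (Known.disc (geoQuad hQ))) :
    IsPlusTypeOn Q ⊤ ↔ Fintype.card F ^ m % 4 = 1 := by
  have h2 := two_ne_zero_of_odd_card hq
  have h0 := geoQuad_nondegenerate hQ
  rw [isPlusTypeOn_top hQ, Known.isPlus_iff_isSquare_disc h2 h0 (m := m) (by simpa),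
    ← Known.isSquare_neg_one_pow_iff h2,
    (((Known.sqEq_one_iff (Known.disc_ne_zero h0)).2 h).mul_left _).isSquare_iff, mul_one]

theorem dec_odd (hQ : IsNondegenerateQuadraticForm Q) (hD : IsOrthogonalMDecomposition Q k D)
    (hk : Odd k) {m : ℕ} (hm : Fintype.card ι = 2 * m) :
    Odd (Fintype.card F) ∧ (IsPlusTypeOn Q ⊤ ↔ Fintype.card F ^ m % 4 = 1) := by
  let j : Fin t := ⟨0, by have := hD.decomp.decomp.two_le; omega⟩
  have hq := odd_of_nondeg hQ (hD.decomp.nondegenerate j) ((hD.decomp.decomp.finrank_eq j).symm ▸ hk)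
  refine ⟨hq, isPlus_iff_of_disc hQ hq hm ?_⟩
  obtain ⟨s, rfl⟩ : Even t := by
    have := Asch.card_eq_of_isMDecomposition hD.decomp.decomp
    exact (Nat.even_mul.1 (this ▸ hm ▸ even_two_mul m)).resolve_right (Nat.not_even_iff_odd.2 hk)
  refine (sqEq_disc_of_perpFam (perpFam_of (Q := geoQuad hQ) hD) hD.decomp.decomp.iSup_eq_top
    (d := Known.disc ((geoQuad hQ).restrict (D j))) fun i => ?_).isSquare_iff.2 ⟨_, pow_add _ s s⟩
  obtain ⟨e, he⟩ := hD.isometric j i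
  exact Known.sqEq_disc_of_equiv e he

variable {D : Fin 2 → Submodule F (ι → F)}

theorem isOrthogonal_of_isometric (hD : IsNondegenerateMDecomposition (polar Q) k D)
    (h : AreIsometricFor Q (D 0) (D 1)) : IsOrthogonalMDecomposition Q k D := by
  obtain ⟨e, he⟩ := h
  refine ⟨hD, fun i j => ?_⟩
  fin_cases i <;> fin_cases j
  exacts [⟨.refl _ _, fun _ => rfl⟩, ⟨e, he⟩, ⟨e.symm, fun w => by
    rw [← he, e.apply_symm_apply]⟩, ⟨.refl _ _, fun _ => rfl⟩]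

theorem pair_odd (hQ : IsNondegenerateQuadraticForm Q)
    (hD : IsNondegenerateMDecomposition (polar Q) k D) (hk : Odd k)
    (h : ¬ AreIsometricFor Q (D 0) (D 1)) :
    Odd (Fintype.card F) ∧ (IsPlusTypeOn Q ⊤ ↔ Fintype.card F ^ k % 4 = 3) := by
  have hq := odd_of_nondeg hQ (hD.nondegenerate 0) ((hD.decomp.finrank_eq 0).symm ▸ hk)
  have h2 := two_ne_zero_of_odd_card hq
  have h0 := geoQuad_nondegenerate hQ
  have h3 := fun i => restrict_nondeg_iff.2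
    (disjoint_orth_of_isNondegenerateOn (Q := geoQuad hQ) (hD.nondegenerate i))
  have h4 := Known.sqEq_disc_of_isCompl (geoQuad hQ) (A := D 0) (B := D 1)
    ⟨hD.decomp.indep.pairwiseDisjoint (by decide), codisjoint_iff.2 (by
      rw [eq_top_iff, ← hD.decomp.iSup_eq_top]
      exact iSup_le (Fin.forall_fin_two.2 ⟨le_sup_left, le_sup_right⟩))⟩ (hD.orthogonal 0 1 (by decide))
  have h5 : ¬ IsSquare (Known.disc (geoQuad hQ)) := fun h5 => h (by
    obtain ⟨g, hg⟩ := Known.exists_equiv_of_sqEq_disc h2 (h3 0) (h3 1)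
      (by rw [hD.decomp.finrank_eq, hD.decomp.finrank_eq]) ((Known.sqEq_iff_isSquare_mul
        (Known.disc_ne_zero (h3 0)) (Known.disc_ne_zero (h3 1))).2 (h4.isSquare_iff.1 h5))
    exact ⟨g, hg⟩)
  refine ⟨hq, ?_⟩
  rw [isPlusTypeOn_top hQ, Known.isPlus_iff_isSquare_disc h2 h0 (m := k)
    (by simpa using Asch.card_eq_of_isMDecomposition hD.decomp), ← Known.sqEq_iff_isSquare_mul
    (pow_ne_zero _ (neg_ne_zero.2 one_ne_zero)) (Known.disc_ne_zero h0),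
    Known.sqEq_iff_isSquare_iff (pow_ne_zero _ (neg_ne_zero.2 one_ne_zero)) (Known.disc_ne_zero h0),
    Known.isSquare_neg_one_pow_iff h2, iff_false_intro h5, iff_false]
  have := Known.pow_mod_four_eq_one_or hq k
  omega

theorem isometric_of_plus (hQ : IsNondegenerateQuadraticForm Q)
    (hD : IsNondegenerateMDecomposition (polar Q) k D) (hk : Even k) (hp : IsPlusTypeOn Q ⊤) :
    AreIsometricFor Q (D 0) (D 1) := by
  have h0 := geoQuad_nondegenerate hQ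
  have h3 := fun i => disjoint_orth_of_isNondegenerateOn (Q := geoQuad hQ) (hD.nondegenerate i)
  have hn := Asch.card_eq_of_isMDecomposition hD.decomp
  have h4 : D 1 = orth (geoQuad hQ) (D 0) :=
    Submodule.eq_of_le_of_finrank_eq (fun y hy => mem_orth.2 fun x hx =>
      hD.orthogonal 0 1 (by decide) x hx y hy) (by
        have := finrank_orth h0 (D 0)
        rw [hD.decomp.finrank_eq, finrank_fintype_fun_eq_card] at this
        rw [hD.decomp.finrank_eq]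
        omega)
  have h5 := (isPlus_iff_orth h0 (h3 0) ((hD.decomp.finrank_eq 0).symm ▸ hk)
    (by simp [hn])).1 ((isPlusTypeOn_top hQ).1 hp)
  rw [← h4] at h5
  exact Known.exists_equiv_of_isPlus_iff (restrict_nondeg_iff.2 (h3 0))
    (restrict_nondeg_iff.2 (h3 1)) ((hD.decomp.finrank_eq 0).symm ▸ hk)
    (by rw [hD.decomp.finrank_eq, hD.decomp.finrank_eq]) h5

end Dec

/-- The alternative of a non-degenerate subspace. -/
def NdAlt (Q : (ι → F) → F) (H : Subgroup (GL ι F)) (W : Submodule F (ι → F)) : Prop :=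
  W ≠ ⊥ ∧ W ≠ ⊤ ∧ IsNondegenerateOn (polar Q) W ∧ (Odd (finrank F W) → Odd (Fintype.card F)) ∧
    (finrank F W = 2 → IsPlusTypeOn Q W → 4 ≤ Fintype.card F) ∧
    H = subspaceStabilizer W ⊓ omegaGL Q

theorem ndAlt (hQ : IsNondegenerateQuadraticForm Q) (hn : 5 ≤ Fintype.card ι)
    (hH : IsMaximalIn (omegaGL Q) H) {W : Submodule F (ι → F)} (h0 : W ≠ ⊥) (h1 : W ≠ ⊤)
    (hW : IsNondegenerateOn (polar Q) W) (hle : H ≤ subspaceStabilizer W) : NdAlt Q H W := by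
  have hQ' := geoQuad_nondegenerate hQ
  refine ⟨h0, h1, hW, odd_of_nondeg hQ hW, fun h2 hp => ?_,
    AL.eq_inf_of_le hH hle (not_le_subspace hQ' hn h0 h1)⟩
  by_contra! h
  exact false_of_lt hH hle (exists_lt_hyp hQ' hn (by omega) h2 hW hp)

theorem nd_cases (hQ : IsNondegenerateQuadraticForm Q) (hn : 7 ≤ Fintype.card ι)
    (hH : IsMaximalIn (omegaGL Q) H) {W : Submodule F (ι → F)} (h0 : W ≠ ⊥) (h1 : W ≠ ⊤)
    (hW : IsNondegenerateOn (polar Q) W) (hle : H ≤ subspaceStabilizer W) :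
    ∃ W W', NdAlt Q H W ∧ NdAlt Q H W' ∧ 0 < finrank F W ∧ finrank F W ≤ finrank F W' ∧
      finrank F W + finrank F W' = Fintype.card ι ∧ (finrank F W = finrank F W' →
        ∃ D : Fin 2 → Submodule F (ι → F), IsNondegenerateMDecomposition (polar Q) (finrank F W) D ∧
          H = decompositionStabilizer D ⊓ omegaGL Q) := by
  have hf := isSesq_polar hQ
  have h2 := finrank_add_perp_of_nondeg hf hW
  have h3 : ∀ g ∈ H, ∀ v ∈ W, (g : Matrix ι ι F) *ᵥ v ∈ W := fun g hg v => (hle hg v).1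
  have h4 := perp_inv hf ((hH.1.le.trans (omegaGL_le Q)).trans ((isometryGroup_le_isoms Q).trans
    (isoms_le_similarityGroup _))) h3
  have h5 : ∀ {U : Submodule F (ι → F)}, U ≠ ⊥ → 0 < finrank F U := fun h =>
    Nat.pos_of_ne_zero fun h2 => h (Submodule.finrank_eq_zero.1 h2)
  have h6 := ndAlt hQ (by omega) hH h0 h1 hW hle
  have h7 := ndAlt hQ (by omega) hH (perp_ne_bot hf h1) (fun h => by
    have := h5 h0
    rw [h, finrank_top, finrank_fintype_fun_eq_card] at h2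
    omega) (perp_nondeg hf hW) (le_subspaceStabilizer h4)
  rcases le_or_gt (finrank F W) (finrank F (perp hf W)) with h | h
  · refine ⟨_, _, h6, h7, h5 h0, h, h2, fun h8 => ?_⟩
    have h9 := isNondegenerateMDecomposition_perp hf hW h0 (by omega)
    refine ⟨_, h9, AL.eq_inf_of_le hH (le_decompositionStabilizer_of_inv fun i => ?_)
      (not_le_decomposition (geoQuad_nondegenerate hQ) h9.decomp (by omega))⟩
    fin_cases i
    exacts [h3, h4]
  · exact ⟨_, _, h7, h6, h5 h7.1, h.le, by omega, fun h8 => by omega⟩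

/-- The alternatives for a maximal subgroup. -/
def MaxCase (Q : (ι → F) → F) (H : Subgroup (GL ι F)) : Prop :=
  (∃ W : Submodule F (ι → F), W ≠ ⊥ ∧ IsTotallySingularQuad Q W ∧
      (IsPlusTypeOn Q ⊤ → 2 * (finrank F W + 1) ≠ Fintype.card ι) ∧
      H = subspaceStabilizer W ⊓ omegaGL Q) ∨
  (∃ W W', NdAlt Q H W ∧ NdAlt Q H W' ∧ 0 < finrank F W ∧ finrank F W ≤ finrank F W' ∧
      finrank F W + finrank F W' = Fintype.card ι ∧ (finrank F W = finrank F W' →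
        ∃ D : Fin 2 → Submodule F (ι → F), IsNondegenerateMDecomposition (polar Q) (finrank F W) D ∧
          H = decompositionStabilizer D ⊓ omegaGL Q)) ∨
  (¬ Odd (Fintype.card F) ∧ ∃ v : ι → F, Q v ≠ 0 ∧
      H = subspaceStabilizer (Submodule.span F {v}) ⊓ omegaGL Q) ∨
  (∃ (t k : ℕ) (D : Fin t → Submodule F (ι → F)), 2 ≤ t ∧ Fintype.card ι = t * k ∧
      (k = 1 → (Fintype.card F).Prime) ∧ IsOrthogonalMDecomposition Q k D ∧
      (9 ≤ Fintype.card ι → ¬ ((k = 2 ∧ (Fintype.card F = 3 ∨ ((∀ i, IsPlusTypeOn Q (D i)) ∧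
        (Fintype.card F = 2 ∨ Fintype.card F = 4 ∨ Fintype.card F = 5)))) ∨
        (k = 3 ∧ Fintype.card F = 3) ∨
        (k = 4 ∧ Fintype.card F = 2 ∧ ∀ i, IsPlusTypeOn Q (D i)))) ∧
      H = decompositionStabilizer D ⊓ omegaGL Q) ∨
  (∃ (k : ℕ) (D : Fin 2 → Submodule F (ι → F)), Even k ∧ Fintype.card ι = 2 * k ∧
      IsPlusTypeOn Q ⊤ ∧ IsMDecomposition k D ∧ (∀ i, IsTotallySingularQuad Q (D i)) ∧
      H = decompositionStabilizer D ⊓ omegaGL Q) ∨
  (∃ (r : ℕ) (K : Subalgebra F (Matrix ι ι F)), r.Prime ∧ r ∣ Fintype.card ι ∧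
      Fintype.card ι ≠ r ∧ Fintype.card ι ≠ 2 * r ∧
      (¬ 2 * r ∣ Fintype.card ι → Odd (Fintype.card F)) ∧ IsFieldSubalgebra r K ∧
      IsSelfAdjointFor (polar Q) K ∧ H = subalgebraNormalizer K ⊓ omegaGL Q) ∨
  (∃ K : Subalgebra F (Matrix ι ι F), 2 ∣ Fintype.card ι ∧
      (Fintype.card ι = 10 → ¬ IsPlusTypeOn Q ⊤) ∧ IsFieldSubalgebra 2 K ∧
      IsAdjointClosedFor (polar Q) K ∧ ¬ IsSelfAdjointFor (polar Q) K ∧
      (∀ k ∈ K, ∃ c : F, ∀ v, Q (k *ᵥ v) = c * Q v) ∧ H = subalgebraNormalizer K ⊓ omegaGL Q) ∨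
  (∃ (n₁ n₂ : ℕ) (e : ι ≃ Fin n₁ × Fin n₂) (P : GL ι F)
      (f₁ : (Fin n₁ → F) → (Fin n₁ → F) → F) (f₂ : (Fin n₂ → F) → (Fin n₂ → F) → F),
      Fintype.card ι = n₁ * n₂ ∧ Odd (Fintype.card F) ∧ 3 ≤ n₁ ∧ n₁ ≤ n₂ ∧ (Odd n₁ → n₁ < n₂) ∧
      IsSymmetricForm f₁ ∧ IsSymmetricForm f₂ ∧ IsTensorFormStructure id (polar Q) f₁ f₂ e P ∧
      H = tensorProductSubgroup n₁ n₂ e P ⊓ omegaGL Q) ∨
  (∃ (n₁ n₂ : ℕ) (e : ι ≃ Fin n₁ × Fin n₂) (P : GL ι F)
      (f₁ : (Fin n₁ → F) → (Fin n₁ → F) → F) (f₂ : (Fin n₂ → F) → (Fin n₂ → F) → F),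
      Fintype.card ι = n₁ * n₂ ∧ Even n₁ ∧ Even n₂ ∧ 2 ≤ n₁ ∧ n₁ ≤ n₂ ∧ IsSymplecticForm f₁ ∧
      IsSymplecticForm f₂ ∧ IsTensorFormStructure id (polar Q) f₁ f₂ e P ∧
      (∀ (x₁ : Fin n₁ → F) (x₂ : Fin n₂ → F),
        Q ((P : Matrix ι ι F) *ᵥ ((fun a : Fin n₁ × Fin n₂ => x₁ a.1 * x₂ a.2) ∘ e)) = 0) ∧
      H = tensorProductSubgroup n₁ n₂ e P ⊓ omegaGL Q) ∨
  (∃ (F₀ : Subfield F) (r : ℕ) (P : GL ι F) (ζ : F), r.Prime ∧ Fintype.card F = Nat.card F₀ ^ r ∧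
      (Even (Fintype.card ι) → ¬ IsPlusTypeOn Q ⊤ → Odd r) ∧ ζ ≠ 0 ∧
      IsQuadFormRationalStructure (fun v => ζ * Q v) F₀ P ∧
      H = subfieldSubgroup F₀ P ⊓ omegaGL Q) ∨
  (∃ k, Fintype.card ι = 2 ^ k ∧ IsPlusTypeOn Q ⊤) ∨
  (∃ (k t : ℕ) (e : ι ≃ (Fin t → Fin k)) (P : GL ι F) (f₁ : (Fin k → F) → (Fin k → F) → F),
      Fintype.card ι = k ^ t ∧ Odd (Fintype.card F) ∧ 3 ≤ k ∧ 2 ≤ t ∧
      ¬ (Fintype.card F = 3 ∧ k = 3) ∧ IsSymmetricForm f₁ ∧
      IsTensorPowerFormStructure id (polar Q) f₁ e P ∧ H ≤ tensorWreathSubgroup k t e P) ∨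
  (∃ (k t : ℕ) (e : ι ≃ (Fin t → Fin k)) (P : GL ι F) (f₁ : (Fin k → F) → (Fin k → F) → F),
      Fintype.card ι = k ^ t ∧ Even k ∧ 2 ≤ t ∧ IsSymplecticForm f₁ ∧
      IsTensorPowerFormStructure id (polar Q) f₁ e P ∧ ∀ x : Fin t → Fin k → F,
        Q ((P : Matrix ι ι F) *ᵥ ((fun a : Fin t → Fin k => ∏ i, x i (a i)) ∘ e)) = 0) ∨
  InOrthogonalResidualClass H

theorem maxCase (hQ : IsNondegenerateQuadraticForm Q) (hn : 7 ≤ Fintype.card ι)
    (hH : IsMaximalIn (omegaGL Q) H) : MaxCase Q H := by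
  have hQ' := geoQuad_nondegenerate hQ
  have hle := hH.1.le.trans (omegaGL_le Q)
  have : Nonempty ι := Fintype.card_pos_iff.1 (by omega)
  have ts : ∀ {W : Submodule F (ι → F)}, IsTotallySingularQuad Q W → W ≠ ⊤ := by
    rintro _ h rfl
    obtain ⟨i⟩ := this
    have := nondeg_left hQ' (x := Pi.single i 1) fun v => by
      simp [polar, h _ Submodule.mem_top]
    simpa using congrFun this i
  have a1 : ∀ W : Submodule F (ι → F), W ≠ ⊥ → IsTotallySingularQuad Q W →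
      H ≤ subspaceStabilizer W → MaxCase Q H := fun W h0 h1 h =>
    Or.inl ⟨W, h0, h1, fun hp hd => false_of_lt hH h ((notMaxOm_singular hQ' (by simp; omega)
      ((isPlusTypeOn_top hQ).1 hp) h1 (by simpa)).exists_lt (mem_subspaceStabilizer_iff_glLin W)),
      AL.eq_inf_of_le hH h (not_le_subspace hQ' (by omega) h0 (ts h1))⟩
  have a2 : ∀ W : Submodule F (ι → F), W ≠ ⊥ → W ≠ ⊤ → IsNondegenerateOn (polar Q) W →
      H ≤ subspaceStabilizer W → MaxCase Q H := fun W h0 h1 h2 h =>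
    Or.inr (Or.inl (nd_cases hQ hn hH h0 h1 h2 h))
  have a3 : ∀ v, ¬ Odd (Fintype.card F) → Q v ≠ 0 →
      H ≤ subspaceStabilizer (Submodule.span F {v}) → MaxCase Q H := fun v h0 h1 h =>
    Or.inr (Or.inr (Or.inl ⟨h0, v, h1, AL.eq_inf_of_le hH h (not_le_subspace hQ' (by omega)
      (fun h2 => h1 (by rw [Submodule.span_singleton_eq_bot.1 h2, quad_zero hQ])) fun h2 => by
        have h3 := finrank_span_singleton_le (F := F) v
        rw [h2, finrank_top, finrank_fintype_fun_eq_card] at h3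
        omega)⟩))
  have dec : ∀ {t k : ℕ} {D : Fin t → Submodule F (ι → F)}, IsMDecomposition k D →
      H ≤ decompositionStabilizer D → H = decompositionStabilizer D ⊓ omegaGL Q :=
    fun {t k D} hD h => AL.eq_inf_of_le hH h (not_le_decomposition hQ' hD (by
      have h1 := Asch.card_eq_of_isMDecomposition hD
      have h2 := hD.two_le
      rw [h1] at hn ⊢
      by_contra! h3
      have h4 : 2 * k ≤ t * k := Nat.mul_le_mul_right k h2
      have h5 : k ≤ 3 := by omega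
      interval_cases k <;> omega))
  have a4 : ∀ (t k : ℕ) (D : Fin t → Submodule F (ι → F)), (k = 1 → (Fintype.card F).Prime) →
      IsOrthogonalMDecomposition Q k D → H ≤ decompositionStabilizer D → MaxCase Q H :=
    fun t k D h0 hD h => Or.inr (Or.inr (Or.inr (Or.inl ⟨t, k, D, hD.decomp.decomp.two_le,
      Asch.card_eq_of_isMDecomposition hD.decomp.decomp, h0, hD,
      fun h9 hc => false_of_lt hH h (exists_lt_dec hQ' h9 hD hc), dec hD.decomp.decomp h⟩)))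
  have a5 : ∀ (k : ℕ) (D : Fin 2 → Submodule F (ι → F)), IsMDecomposition k D →
      (∀ i, IsTotallySingularQuad Q (D i)) → H ≤ decompositionStabilizer D → MaxCase Q H :=
    fun k D hD h0 h => by
      have h1 := Asch.card_eq_of_isMDecomposition hD
      refine Or.inr (Or.inr (Or.inr (Or.inr (Or.inl ⟨k, D, ?_, h1, ⟨D 0, le_top, h0 0, by
        simp [hD.finrank_eq, h1]⟩, hD, h0, dec hD h⟩))))
      by_contra h2
      exact false_of_lt hH h ((notMaxOm_pair_odd hQ' (by simp; omega) (Nat.not_even_iff_odd.1 h2)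
        hD.finrank_eq (by simpa) (hD.indep.pairwiseDisjoint (by decide)) h0).exists_lt
        (mem_decompositionStabilizer_iff_glLin D))
  have a6 : ∀ (r : ℕ) (K : Subalgebra F (Matrix ι ι F)), r.Prime → Fintype.card ι ≠ r →
      Fintype.card ι ≠ 2 * r → IsFieldSubalgebra r K → IsSelfAdjointFor (polar Q) K →
      H ≤ subalgebraNormalizer K → MaxCase Q H := fun r K h0 h1 h2 hK hs h =>
    Or.inr (Or.inr (Or.inr (Or.inr (Or.inr (Or.inl ⟨r, K, h0, IsFieldSubalgebra.dvd_card hK, h1, h2,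
      odd_of_selfAdjoint hQ' hK hs, hK, hs,
      AL.eq_inf_of_le hH h (not_le_field hQ' (by omega) h0.two_le hK)⟩)))))
  have a7 : ∀ K : Subalgebra F (Matrix ι ι F), IsFieldSubalgebra 2 K →
      IsAdjointClosedFor (polar Q) K → ¬ IsSelfAdjointFor (polar Q) K →
      (∀ k ∈ K, ∃ c : F, ∀ v, Q (k *ᵥ v) = c * Q v) → H ≤ subalgebraNormalizer K →
      MaxCase Q H := fun K hK h0 h1 h2 h =>
    Or.inr (Or.inr (Or.inr (Or.inr (Or.inr (Or.inr (Or.inl ⟨K, IsFieldSubalgebra.dvd_card hK,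
      fun h3 hp => not_isPlus_of_sim hQ' h3 hK h2 ((isPlusTypeOn_top hQ).1 hp), hK, h0, h1, h2,
      AL.eq_inf_of_le hH h (not_le_field hQ' (by omega) le_rfl hK)⟩))))))
  by_cases hI : Irr H
  swap
  · rcases reducible_cases_quad hQ hle hI with ⟨W, h0, h1, h⟩ | ⟨W, h0, h1, h2, h⟩ | ⟨v, h0, h1, h⟩
    exacts [a1 W h0 h1 h, a2 W h0 h1 h2 h, a3 v h0 h1 h]
  rcases oCase hQ (by omega) hle with ⟨W, h0, h1, h⟩ | ⟨W, h0, h1, h2, h⟩ | ⟨v, h0, h1, h⟩ |
    ⟨t, k, D, h0, hD, h⟩ | ⟨k, D, hD, h0, h⟩ | ⟨r, K, h0, h1, hK, hs, -, h⟩ | ⟨K, hK, h0, h1, h2, h⟩ |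
    ⟨d, k, e, P, f₁, f₂, hq, h0, h1, h2, h3, h4, h5, h⟩ |
    ⟨d, k, e, P, f₁, f₂, h0, h1, h3, h4, h5, h6, h⟩ | ⟨k, r, P, ζ, hr, h0, h1, h2, h⟩ |
    ⟨R, hR, -, h0, -, -, -, -⟩ | ⟨k, t, e, P, f, hq, h0, h1, h2, h3, h4, h⟩ |
    ⟨k, t, e, P, f, h0, -, h1, h2, h3, -⟩ | h
  · exact a1 W h0 h1 h
  · exact a2 W h0 h1 h2 h
  · exact a3 v h0 h1 h
  · exact a4 t k D h0 hD h
  · exact a5 k D hD h0 h
  · by_cases h2 : Fintype.card ι = 2 * r
    swap
    · exact a6 r K h0 h1 h2 hK hs h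
    rcases plane_cases hQ h0.two_le hK hs h2 hle hI h with ⟨t, k, D, h3, hD, h⟩ | ⟨k, D, hD, h3, h⟩ |
      ⟨L, hL, h3, h⟩ | ⟨L, hL, h3, h4, h5, h⟩
    exacts [a4 t k D (fun h => absurd h h3) hD h, a5 k D hD h3 h,
      a6 2 L Nat.prime_two (by omega) (by omega) hL h3 h, a7 L hL h3 h4 h5 h]
  · exact a7 K hK h0 h1 h2 h
  all_goals iterate 7 right
  · exact Or.inl ⟨d, k, e, P, f₁, f₂, card_eq_mul e, hq, h0, h1, h2, h3, h4, h5,
      AL.eq_inf_of_le hH h (not_le_tensor_sym hQ' hq h0 (by omega) h3 h4 h5)⟩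
  · refine Or.inr (Or.inl ⟨d, k, e, P, f₁, f₂, card_eq_mul e,
      by simpa using even_card_of_isSymplecticForm h3,
      by simpa using even_card_of_isSymplecticForm h4, h0, h1, h3, h4, h5, h6,
      AL.eq_inf_of_le hH h (not_le_tensor_alt hQ' hn h0 ?_ h3 h4 h5 h6)⟩)
    by_contra! h7
    have := card_eq_mul e
    have : d * k ≤ 2 * 2 := Nat.mul_le_mul (by omega) (by omega)
    omega
  · refine Or.inr (Or.inr (Or.inl ⟨k, r, P, ζ, hr, h0, fun h3 h4 => hr.odd_of_ne_two ?_, h1, h2,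
      AL.eq_inf_of_le hH h fun h3 =>
        (isMaximalIn_subfield_smul hQ hn hr h0 h1 h2).1.ne (inf_eq_right.2 h3)⟩))
    rintro rfl
    obtain ⟨m, hm⟩ := h3
    exact h4 ((isPlusTypeOn_top hQ).2 (isPlus_of_subfield hQ' (m := m - 1) (by omega) h0 h1 h2))
  · obtain ⟨k, -, hk⟩ := hR.exists_card_eq_pow
    refine Or.inr (Or.inr (Or.inr (Or.inl ⟨k, hk, (isPlusTypeOn_top hQ).2 ?_⟩)))
    obtain ⟨l, rfl⟩ := Nat.exists_eq_add_of_le (show 2 ≤ k by
      by_contra! h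
      interval_cases k <;> omega)
    exact isPlus_of_cl2 hQ' (m := 2 ^ l) (by rw [hk]; ring) hR h0
  · exact Or.inr (Or.inr (Or.inr (Or.inr (Or.inl ⟨k, t, e, P, f, by simpa using Fintype.card_congr e,
      hq, h0, h1, h2, h3, h4, h⟩))))
  · exact Or.inr (Or.inr (Or.inr (Or.inr (Or.inr (Or.inl ⟨k, t, e, P, f,
      by simpa using Fintype.card_congr e, by simpa using even_card_of_isSymplecticForm h1,
      h0, h1, h2, h3⟩)))))
  · exact Or.inr (Or.inr (Or.inr (Or.inr (Or.inr (Or.inr h)))))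

/-- Small perfect powers. -/
theorem pow_cases {k t n : ℕ} (hn : n = k ^ t) (ht : 2 ≤ t) (h : 5 ≤ n) (h' : n ≤ 15) :
    (k = 2 ∧ t = 3) ∨ (k = 3 ∧ t = 2) := by
  have h1 : k ≤ 3 := by
    by_contra! h1
    have : 4 ^ 2 ≤ k ^ t := (Nat.pow_le_pow_left h1 2).trans (Nat.pow_le_pow_right (by omega) ht)
    omega
  have h2 : 2 ≤ k := by
    by_contra! h2
    have : k ^ t ≤ 1 ^ t := Nat.pow_le_pow_left (by omega) t
    simp at this
    omega
  have h3 : t ≤ 3 := by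
    by_contra! h3
    have : 2 ^ 4 ≤ k ^ t := (Nat.pow_le_pow_left h2 4).trans (Nat.pow_le_pow_right (by omega) h3)
    omega
  interval_cases k <;> interval_cases t <;> omega

end Cfsg.Lib.Class.AO
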