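import Cfsg.Agent.Class.AO.Basic

/-!
A quadratic form whose polar form is compatible with an extension field is the trace of a
quadratic form over that field. Planes.
-/

set_option autoImplicit false

namespace Cfsg.Lib.Class.AO

open QuadraticMap Module Orth OMax

section Descent

variable {F K V : Type*} [Field F] [Field K] [Algebra F K] [Finite K]

theorem exists_trace_eq (φ : K →ₗ[F] F) : ∃ c : K, ∀ x, Algebra.trace F K (x * c) = φ x := by
  have : Finite F := Finite.of_injective _ (algebraMap F K).injective
  refine ⟨(LinearMap.BilinForm.toDual _ (traceForm_nondegenerate F K)).symm φ, fun x => ?_⟩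
  rw [mul_comm]
  exact LinearMap.BilinForm.apply_toDual_symm_apply (hB := traceForm_nondegenerate F K) φ x

theorem eq_zero_of_trace {c : K} (h : ∀ x, Algebra.trace F K (x * c) = 0) : c = 0 := by
  have : Finite F := Finite.of_injective _ (algebraMap F K).injective
  exact (traceForm_nondegenerate F K).2 c h

theorem eq_of_trace_sq {c d : K}
    (h : ∀ x, Algebra.trace F K (x * x * c) = Algebra.trace F K (x * x * d)) : c = d := by
  have h1 : ∀ x, Algebra.trace F K (x * x * (c - d)) = 0 := fun x => by
    rw [mul_sub, map_sub, h, sub_self]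
  refine sub_eq_zero.1 ?_
  by_cases h2 : (2 : K) = 0
  · refine eq_zero_of_trace (F := F) fun x => ?_
    obtain ⟨y, rfl⟩ := Asch.exists_mul_self_of_two h2 x
    exact h1 y
  · refine (mul_eq_zero.1 (eq_zero_of_trace (F := F) (c := 2 * (c - d)) fun x => ?_)).resolve_left h2
    have := h1 (x + 1)
    rw [show (x + 1) * (x + 1) * (c - d) = x * x * (c - d) + x * (2 * (c - d)) + 1 * 1 * (c - d) by
      ring, map_add, map_add, h1, h1] at this
    simpa using this

variable [AddCommGroup V] [Module F V] [Module K V] [IsScalarTower F K V] {Q : QuadraticForm F V}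

/-- `R` is a form over `K` with trace `Q`. -/
def IsDesc (Q : QuadraticForm F V) (R : QuadraticForm K V) : Prop :=
  ∀ v, Algebra.trace F K (R v) = Q v

theorem exists_isDesc (hs : ∀ (k : K) u v, polar Q (k • u) v = polar Q u (k • v)) :
    ∃ R : QuadraticForm K V, IsDesc Q R := by
  have hb : ∀ u v : V, ∃ c : K, ∀ x, Algebra.trace F K (x * c) = polar Q (x • u) v := fun u v =>
    exists_trace_eq ((polarBilin Q).flip v ∘ₗ (LinearMap.toSpanSingleton K V u).restrictScalars F)
  have key : ∀ v : V, ∃ c : K, ∀ x, Algebra.trace F K (x * x * c) = Q (x • v) := fun v => by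
    by_cases h2 : (2 : F) = 0
    · have h3 : (2 : K) = 0 := by rw [← map_ofNat (algebraMap F K) 2, h2, map_zero]
      choose s hs' using Asch.exists_mul_self_of_two h3
      have h4 : ∀ x y : K, x * x = y * y → x = y := fun x y h => sub_eq_zero.1
        (mul_self_eq_zero.1 (by linear_combination h + (y * y - x * y) * h3))
      have : Finite F := Finite.of_injective _ (algebraMap F K).injective
      obtain ⟨c, hc⟩ := exists_trace_eq (F := F) (K := K)
        { toFun := fun x => Q (s x • v)
          map_add' := fun x y => by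
            rw [h4 (s (x + y)) (s x + s y) (by
              linear_combination hs' (x + y) - hs' x - hs' y - s x * s y * h3), add_smul, Q_add,
              hs, smul_smul, ← hs' (s x * s y), mul_smul, ← hs, polar_self', h2]
            ring
          map_smul' := fun a x => by
            obtain ⟨b, rfl⟩ := Asch.exists_mul_self_of_two h2 a
            rw [h4 (s ((b * b) • x)) (b • s x) (by
              rw [hs', smul_mul_smul_comm, hs']), smul_assoc, Q_smul, pow_two]
            rfl }
      exact ⟨c, fun x => by rw [hc]; exact congrArg (fun y => Q (y • v)) (h4 _ _ (hs' _))⟩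
    · obtain ⟨c, hc⟩ := hb v v
      refine ⟨(2 : F)⁻¹ • c, fun x => ?_⟩
      rw [mul_smul_comm, map_smul, hc, mul_smul, hs, polar_self', smul_eq_mul,
        inv_mul_cancel_left₀ h2]
  choose R hR using key
  have hp : ∀ x u v, Algebra.trace F K (x * x * polar R u v) = polar Q (x • u) (x • v) :=
    fun x u v => by simp only [polar, mul_sub, map_sub, hR, smul_add]
  have hp' : ∀ x u v, Algebra.trace F K (x * polar R u v) = polar Q (x • u) v := fun x u v => by
    obtain ⟨c, hc⟩ := hb u v
    rw [eq_of_trace_sq (F := F) (c := polar R u v) (d := c) fun y => by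
      rw [hp, hc, mul_smul, hs y (y • u)], hc]
  refine ⟨ofPolar R (fun a x => eq_of_trace_sq (F := F) fun y => ?_)
    (fun x x' z => eq_of_trace_sq (F := F) fun y => ?_)
    (fun a x z => eq_of_trace_sq (F := F) fun y => ?_), fun v => ?_⟩
  · rw [hR, smul_smul, ← hR, smul_eq_mul]
    congr 1
    ring
  · rw [mul_add, map_add, hp, hp, hp, smul_add, polar_add_left]
  · rw [smul_eq_mul, ← mul_assoc, hp', hp', smul_smul]
  · simpa using hR v 1

namespace IsDesc

variable {R : QuadraticForm K V}

omit [Finite K] [IsScalarTower F K V]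

theorem sq (h : IsDesc Q R) (x : K) (v : V) : Algebra.trace F K (x * x * R v) = Q (x • v) := by
  rw [← h, Q_smul, pow_two]

theorem polar (h : IsDesc Q R) (x : K) (u v : V) :
    Algebra.trace F K (x * polar R u v) = polar Q (x • u) v := by
  rw [← polar_smul_left']
  simp only [QuadraticMap.polar, map_sub, h _]

theorem nondeg (h : IsDesc Q R) (hQ : (polarBilin Q).Nondegenerate) :
    (polarBilin R).Nondegenerate := nondeg_of fun u hu => nondeg_left hQ fun v => by
  rw [← one_smul K u, ← h.polar, hu, mul_zero, map_zero]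

end IsDesc

end Descent

section Plane

variable {K V : Type*} [Field K] [AddCommGroup V] [Module K V] {R : QuadraticForm K V}

theorem polar_skew {t : V →ₗ[K] V} (ht : ∀ v, polar R (t v) v = 0) (u v : V) :
    polar R (t u) v = -polar R (t v) u := by
  have := ht (u + v)
  rw [map_add, polar_add_left, polar_add_right, polar_add_right, ht, ht] at this
  linear_combination this

variable [FiniteDimensional K V]

theorem eq_zero_of_alt (hR : (polarBilin R).Nondegenerate) (h2 : finrank K V = 2)
    {t : V →ₗ[K] V} (ht : ∀ v, polar R (t v) v = 0) {v : V} (hv : v ≠ 0) (h : t v = 0) : t = 0 := by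
  ext u
  by_cases hu : u ∈ Submodule.span K {v}
  · obtain ⟨c, rfl⟩ := Submodule.mem_span_singleton.1 hu
    simp [h]
  have h3 : Submodule.span K {v} ⊔ Submodule.span K {u} = ⊤ := by
    refine Submodule.eq_top_of_finrank_eq (le_antisymm (Submodule.finrank_le _) ?_)
    have := Submodule.finrank_lt_finrank_of_lt (left_lt_sup.2 (show ¬ Submodule.span K {u} ≤
      Submodule.span K {v} by rwa [Submodule.span_singleton_le_iff_mem]))
    rw [finrank_span_singleton hv] at this
    omega
  refine nondeg_left hR fun w => ?_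
  obtain ⟨_, h4, _, h5, rfl⟩ := Submodule.mem_sup.1 (h3 ▸ Submodule.mem_top : w ∈ _)
  obtain ⟨a, rfl⟩ := Submodule.mem_span_singleton.1 h4
  obtain ⟨b, rfl⟩ := Submodule.mem_span_singleton.1 h5
  rw [polar_add_right, polar_smul_right', polar_smul_right', ht, polar_skew ht, h]
  simp

theorem exists_eq_smul_of_alt (hR : (polarBilin R).Nondegenerate) (h2 : finrank K V = 2)
    {t j : V →ₗ[K] V} (ht : ∀ v, polar R (t v) v = 0) (hj : ∀ v, polar R (j v) v = 0)
    (hj0 : j ≠ 0) : ∃ c : K, t = c • j := by
  have : Nontrivial V := nontrivial_of_finrank_pos (R := K) (by omega)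
  obtain ⟨v, hv⟩ := exists_ne (0 : V)
  have h3 : j v ≠ 0 := fun h => hj0 (eq_zero_of_alt hR h2 hj hv h)
  have h4 := finrank_orth hR (Submodule.span K {v})
  rw [finrank_span_singleton hv] at h4
  have h5 : Submodule.span K {j v} = orth R (Submodule.span K {v}) :=
    Submodule.eq_of_le_of_finrank_eq ((Submodule.span_singleton_le_iff_mem _ _).2
      (mem_orth_span.2 (by rintro _ rfl; exact pc (hj _)))) (by
        rw [finrank_span_singleton h3]; omega)
  obtain ⟨c, hc⟩ := Submodule.mem_span_singleton.1
    (h5 ▸ mem_orth_span.2 (by rintro _ rfl; exact pc (ht _)) : t v ∈ Submodule.span K {j v})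
  refine ⟨c, sub_eq_zero.1 (eq_zero_of_alt hR h2 (fun w => ?_) hv (by simp [hc]))⟩
  rw [LinearMap.sub_apply, LinearMap.smul_apply, polar_sub_left, polar_smul_left', ht, hj]
  simp

theorem comm_of_plane (hR : (polarBilin R).Nondegenerate) (h2 : finrank K V = 2)
    {s s' : V →ₗ[K] V} (hs : ∀ v, polar R (s v) v = R v) (hs' : ∀ v, polar R (s' v) v = R v) :
    s * s' = s' * s := by
  have h3 : ∀ v, polar R ((s' - s) v) v = 0 := fun v => by
    rw [LinearMap.sub_apply, polar_sub_left, hs, hs', sub_self]
  have h4 : ∀ v, polar R ((s + s - 1 : V →ₗ[K] V) v) v = 0 := fun v => by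
    rw [LinearMap.sub_apply, LinearMap.add_apply, polar_sub_left, polar_add_left, hs,
      Module.End.one_apply, polar_self']
    ring
  by_cases h5 : s + s - 1 = 0
  · have h6 : s + s = 1 := sub_eq_zero.1 h5
    have h7 : (2 : K) ≠ 0 := fun h => by
      have : Nontrivial V := nontrivial_of_finrank_pos (R := K) (by omega)
      rw [← two_smul K, h, zero_smul] at h6
      exact zero_ne_one h6
    refine smul_right_injective _ h7 ?_
    simp only
    rw [two_smul, two_smul, ← add_mul, ← mul_add, h6, one_mul, mul_one]
  · obtain ⟨c, hc⟩ := exists_eq_smul_of_alt hR h2 h3 h4 h5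
    rw [eq_add_of_sub_eq hc]
    simp only [mul_add, add_mul, mul_sub, sub_mul, mul_smul_comm, smul_mul_assoc, mul_one, one_mul]

theorem exists_repr_bilin (hR : (polarBilin R).Nondegenerate) (B : LinearMap.BilinForm K V) :
    ∃ s : V →ₗ[K] V, ∀ u v, polar R (s u) v = B u v :=
  ⟨(LinearMap.BilinForm.toDual (polarBilin R) hR).symm.toLinearMap ∘ₗ B, fun u v =>
    LinearMap.BilinForm.apply_toDual_symm_apply (B := polarBilin R) (hB := hR) (B u) v⟩

theorem exists_not_symm (hR : (polarBilin R).Nondegenerate) (h2 : 2 ≤ finrank K V) :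
    ∃ s : V →ₗ[K] V, (∀ v, polar R (s v) v = R v) ∧
      ¬ ∀ u v, polar R (s u) v = polar R u (s v) := by
  let b := finBasis K V
  let i : Fin (finrank K V) := ⟨0, by omega⟩
  let j : Fin (finrank K V) := ⟨1, by omega⟩
  have hij : i ≠ j := by simp [i, j]
  have hB : ∀ v, R.toBilin b v v = R v := fun v => congr($(toQuadraticMap_toBilin R b) v)
  let A : LinearMap.BilinForm K V := (LinearMap.mul K K).compl₁₂ (b.coord i) (b.coord j)
  obtain ⟨s, hs⟩ := exists_repr_bilin hR (R.toBilin b)
  obtain ⟨t, ht⟩ := exists_repr_bilin hR (R.toBilin b + (A - A.flip))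
  by_contra! h
  have h3 := h s fun v => by rw [hs, hB]
  have h4 := h t (fun v => by simp [ht, hB]) (b i) (b j)
  have h5 : ∀ u v, R.toBilin b u v = R.toBilin b v u := fun u v => by
    rw [← hs, h3, polar_comm, hs]
  rw [polar_comm R (b i), ht, ht] at h4
  have h6 : (2 : K) = 0 := by
    simp [A, hij, hij.symm, h5 (b i)] at h4
    linear_combination h4
  refine b.ne_zero i (nondeg_left hR fun v => ?_)
  simp only [polar, ← hB, map_add, LinearMap.add_apply, h5 v]
  linear_combination R.toBilin b (b i) v * h6

end Plane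

end Cfsg.Lib.Class.AO
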