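import Cfsg.Agent.Class.AO.Tens
import Cfsg.Agent.Class.Asch.ExtraChar
import Cfsg.Agent.Class.OrthOrder
import Cfsg.Agent.Class.AL.Proper

/-!
Extension fields, subfields and extraspecial groups in the orthogonal case.
-/

set_option autoImplicit false

namespace Cfsg.Lib.Class.AO

open QuadraticMap Module Orth OMax Cfsg.Geo Matrix Asch
open scoped MatrixGroups commutatorElement

section Abstract

variable {F K V : Type*} [Field F] [Field K] [Algebra F K] [AddCommGroup V] [Module F V]
  [Module K V] [IsScalarTower F K V]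

/-- A form which is the trace of an alternating form over an extension field. -/
theorem two_mul_finrank_dvd [FiniteDimensional F V] {B : LinearMap.BilinForm F V}
    (hB : B.Nondegenerate) (hs : ∀ (k : K) u v, B (k • u) v = B u (k • v))
    (ha : ∀ (k : K) v, B (k • v) v = 0) : 2 * finrank F K ∣ finrank F V := by
  have hr : B.IsRefl := LinearMap.IsAlt.isRefl fun v => by simpa using ha 1 v
  have : Module.Finite K V := Module.Finite.of_restrictScalars_finite F K V
  obtain ⟨U, hU, hmax⟩ := (wellFounded_gt (α := Submodule K V)).has_min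
    {U | ∀ u ∈ U, ∀ v ∈ U, B u v = 0} ⟨⊥, by simp⟩
  have h1 : B.orthogonal (U.restrictScalars F) = U.restrictScalars F := by
    refine le_antisymm (fun v hv => ?_) fun v hv u hu => hU u hu v hv
    by_contra hvU
    refine hmax (U ⊔ Submodule.span K {v}) (fun x hx y hy => ?_)
      (left_lt_sup.2 (by rwa [Submodule.span_singleton_le_iff_mem]))
    obtain ⟨a, ha', _, hb, rfl⟩ := Submodule.mem_sup.1 hx
    obtain ⟨c, hc, _, hd, rfl⟩ := Submodule.mem_sup.1 hy
    obtain ⟨s, rfl⟩ := Submodule.mem_span_singleton.1 hb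
    obtain ⟨t, rfl⟩ := Submodule.mem_span_singleton.1 hd
    have h2 : ∀ u ∈ U, ∀ k : K, B u (k • v) = 0 := fun u hu k => by
      rw [← hs]; exact hv _ (U.smul_mem k hu)
    simp only [map_add, LinearMap.add_apply, hU a ha' c hc, h2 a ha', hr _ _ (h2 c hc s)]
    rw [← hs, smul_smul, ha]; ring
  have h2 := LinearMap.BilinForm.finrank_orthogonal hB (U.restrictScalars F)
  have h3 := (U.restrictScalars F).finrank_le
  have h4 : finrank F (U.restrictScalars F) = finrank F K * finrank K U :=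
    (finrank_mul_finrank F K U).symm
  rw [h1] at h2
  exact ⟨finrank K U, by rw [mul_assoc, ← h4]; omega⟩

omit [Algebra F K] [IsScalarTower F K V] in
theorem card_sub_one_dvd_sing [Finite V] {Q : QuadraticForm F V}
    (h : ∀ (k : K) v, Q v = 0 → Q (k • v) = 0) : Nat.card K - 1 ∣ sing Q - 1 := by
  let S : SubMulAction Kˣ V :=
    { carrier := {v | Q v = 0 ∧ v ≠ 0}
      smul_mem' := fun k v hv => ⟨h k v hv.1, (smul_ne_zero_iff_ne k).2 hv.2⟩ }
  have h1 := Nat.card_congr (MulAction.selfEquivOrbitsQuotientProd (G := Kˣ) (X := S) fun v =>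
    eq_bot_iff.2 fun k hk => Units.ext (smul_left_injective K v.2.2
      ((congrArg Subtype.val hk).trans (one_smul K v.1).symm)))
  have h2 : sing Q = Nat.card S + 1 := by
    rw [sing, ← Finite.card_option]
    classical
    exact Nat.card_congr ((Equiv.optionSubtypeNe (⟨0, Q.map_zero⟩ : {v // Q v = 0})).symm.trans
      (Equiv.optionCongr ((Equiv.subtypeSubtypeEquivSubtypeInter (fun v => Q v = 0)
        (fun v => v ≠ 0)).symm.trans (Equiv.subtypeEquivRight fun x => by
          simp [Subtype.ext_iff])).symm))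
  rw [h2, h1, Nat.card_prod, Nat.card_units]
  exact Dvd.intro_left _ rfl

end Abstract

variable {F : Type*} [Field F] {ι : Type} [Fintype ι] [DecidableEq ι]
  {Q : QuadraticForm F (ι → F)} {K : Subalgebra F (Matrix ι ι F)} {r : ℕ}

theorem eq_zero_of_mulVec (hK : IsFieldSubalgebra r K) {x : Matrix ι ι F} (hx : x ∈ K)
    (hx0 : x ≠ 0) {v : ι → F} (h : x *ᵥ v = 0) : v = 0 := by
  obtain ⟨y, hy, hxy⟩ := hK.inv x hx hx0
  rw [← one_mulVec v, ← hxy, hK.comm x hx y hy, ← mulVec_mulVec, h, mulVec_zero]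

theorem eq_smul_one_of_eigen (hK : IsFieldSubalgebra r K) {x : Matrix ι ι F} (hx : x ∈ K)
    {v : ι → F} (hv : v ≠ 0) {c : F} (h : x *ᵥ v = c • v) : x = c • 1 := by
  by_contra h0
  exact hv (eq_zero_of_mulVec hK (K.sub_mem hx (K.smul_mem K.one_mem c)) (sub_ne_zero.2 h0)
    (by rw [sub_mulVec, h, smul_mulVec, one_mulVec, sub_self]))

theorem not_le_field [Finite F] (hQ : (polarBilin Q).Nondegenerate) (hn : 5 ≤ Fintype.card ι)
    (hr : 2 ≤ r) (hK : IsFieldSubalgebra r K) : ¬ omegaGL Q ≤ subalgebraNormalizer K := by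
  intro hle
  have : Nonempty ι := Fintype.card_pos_iff.1 (by omega)
  obtain ⟨x, hx, hx'⟩ := AL.IsFieldSubalgebra.exists_nonscalar hr hK
  obtain ⟨p, hp, c, hc⟩ := exists_eigen_of_eich hQ (by simpa) (toLin' x) fun p w => by
    have h1 := K.sub_mem ((hle (toGL_mem (eich_mem_Om hQ (by simpa) p w)) x).1 hx) hx
    have h2 : ∀ v, (cj (toGL Q (eich Q p w)) x - x) *ᵥ (eich Q p w).1 v =
        (eich Q p w).1 (x *ᵥ v) - x *ᵥ (eich Q p w).1 v := fun v => by
      rw [sub_mulVec, ← toGL_mulVec, cj_mulVec, toGL_mulVec]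
    by_cases h0 : cj (toGL Q (eich Q p w)) x - x = 0
    · exact Or.inl fun v => sub_eq_zero.1 (by rw [toLin'_apply, toLin'_apply, ← h2, h0, zero_mulVec])
    · exact Or.inr fun v hv => (eich Q p w).1.map_eq_zero_iff.1
        (eq_zero_of_mulVec hK h1 h0 ((h2 v).trans (sub_eq_zero.2 hv)))
  exact hx' c (eq_smul_one_of_eigen hK hx hp hc)

theorem two_mul_dvd_card [Nonempty ι] {B : LinearMap.BilinForm F (ι → F)} (hB : B.Nondegenerate)
    (hK : IsFieldSubalgebra r K) (hs : IsSelfAdjointFor (fun u v => B u v) K)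
    (ha : ∀ k ∈ K, ∀ v, B (k *ᵥ v) v = 0) : 2 * r ∣ Fintype.card ι := by
  let _ := (isField_of_isFieldSubalgebra hK).toField
  have := two_mul_finrank_dvd (K := K) hB (fun k => hs k k.2) (fun k => ha k k.2)
  rwa [hK.finrank_eq, finrank_fintype_fun_eq_card] at this

theorem polar_mulVec_self_of_two [Finite F] [Nonempty ι] (h2 : (2 : F) = 0)
    (hK : IsFieldSubalgebra r K) (hs : IsSelfAdjointFor (polar Q) K) {k : Matrix ι ι F}
    (hk : k ∈ K) (v : ι → F) : polar Q (k *ᵥ v) v = 0 := by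
  obtain ⟨y, hy, rfl⟩ := IsFieldSubalgebra.exists_mul_self hK h2 hk
  rw [← mulVec_mulVec, hs y hy, polar_self', h2, zero_mul]

theorem odd_of_selfAdjoint [Fintype F] (hQ : (polarBilin Q).Nondegenerate)
    (hK : IsFieldSubalgebra r K) (hs : IsSelfAdjointFor (polar Q) K)
    (h : ¬ 2 * r ∣ Fintype.card ι) : Odd (Fintype.card F) := by
  by_contra h1
  have : Nonempty ι := Fintype.card_pos_iff.1 (Nat.pos_of_ne_zero fun h0 => h (by simp [h0]))
  exact h (two_mul_dvd_card hQ hK hs fun k hk =>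
    polar_mulVec_self_of_two (OMax.two_eq_zero_of_not_odd h1) hK hs hk)

/-- A quadratic extension acting by similarities in dimension ten forces minus type. -/
theorem not_isPlus_of_sim [Fintype F] (hQ : (polarBilin Q).Nondegenerate)
    (hn : Fintype.card ι = 10) (hK : IsFieldSubalgebra 2 K)
    (h : ∀ k ∈ K, ∃ c : F, ∀ v, Q (k *ᵥ v) = c * Q v) : ¬ Known.IsPlus Q := fun hp => by
  have : Nonempty ι := Fintype.card_pos_iff.1 (by omega)
  let _ := (isField_of_isFieldSubalgebra hK).toField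
  have h1 := card_sub_one_dvd_sing (K := K) (Q := Q) fun k v hv => by
    obtain ⟨c, hc⟩ := h k k.2
    exact (hc v).trans (by rw [hv, mul_zero])
  have h2 := sing_of_isPlus hQ (m := 4) (by simpa) hp
  have h3 : 2 ≤ Nat.card F := Finite.one_lt_card
  have h4 : 1 ≤ sing Q := Nat.card_pos_iff.2 ⟨⟨⟨0, Q.map_zero⟩⟩, inferInstance⟩
  rw [IsFieldSubalgebra.natCard hK, ← Int.natCast_dvd_natCast, Nat.cast_sub h4,
    Nat.cast_sub (Nat.one_le_pow _ _ (by omega)), h2] at h1
  generalize Nat.card F = q at h1 h3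
  push_cast at h1
  have h5 : (q : ℤ) ^ 2 - 1 ∣ 2 * (q : ℤ) - 2 := by
    have := h1.sub (Dvd.intro (q ^ 7 + q ^ 5 + 2 * q ^ 3 - q ^ 2 + 2 * q - 1) rfl)
    exact (congrArg _ (by ring)).mp this
  have h6 := Int.le_of_dvd (by omega) h5
  have : (2 : ℤ) ≤ q := by exact_mod_cast h3
  nlinarith

/-- An extraspecial group of isometries in dimension divisible by four forces plus type. -/
theorem isPlus_of_cl2 [Fintype F] (hQ : (polarBilin Q).Nondegenerate) {m : ℕ}
    (hn : Fintype.card ι = 2 * (2 * m)) {R : Subgroup (GL ι F)} (hR : Cl2 2 R)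
    (hle : R ≤ isometryGroup F Q) : Known.IsPlus Q := by
  have := hR.nonempty
  have h2 := hR.two_ne_zero
  obtain ⟨x, hx, hx'⟩ :=
    SetLike.not_le_iff_exists.1 (not_le_scalars_of_env_eq_top hR.two_le hR.env_top)
  obtain ⟨y, hy, c, h1, h3, h4⟩ := hR.exists_comm_ne hx hx'
  have h5 : (c : F) = -1 := (mul_self_eq_one_iff.1 (show (c : F) * c = 1 by
    rw [← pow_two, ← Units.val_pow_eq_pow_val, h3, Units.val_one])).resolve_left fun h => h1 (Units.ext h)
  have h6 : negO Q = ⁅oEquivIsom Q ⟨y, hle hy⟩, oEquivIsom Q ⟨x, hle hx⟩⁆ := by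
    rw [commutatorElement_def, eq_mul_inv_iff_mul_eq, eq_mul_inv_iff_mul_eq, mul_assoc, ← map_mul,
      ← map_mul]
    refine O_ext fun v => ?_
    change -(((x * y : GL ι F) : Matrix ι ι F) *ᵥ v) = ((y * x : GL ι F) : Matrix ι ι F) *ᵥ v
    rw [h4, coe_scalarGL_mul, h5, smul_mulVec, neg_one_smul]
  have h7 := (negO_mem_commutator_iff hQ h2 (m := 2 * m) (by simpa)).1
    (h6 ▸ Subgroup.commutator_mem_commutator (Subgroup.mem_top _) (Subgroup.mem_top _))
  refine h7.2 ?_
  obtain ⟨k, hk⟩ := (odd_card_of_two_ne_zero h2).pow (n := m)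
  rw [Nat.card_eq_fintype_card, mul_comm, pow_mul, hk,
    show (2 * k + 1) ^ 2 = 1 + 4 * (k ^ 2 + k) by ring, Nat.add_mul_mod_self_left]

section Subfield

variable {k : Subfield F} {P : GL ι F} {ζ : F}

theorem polar_mem_of_rational (h : IsQuadFormRationalStructure (fun v => ζ * Q v) k P)
    {u v : ι → F} (hu : ∀ i, u i ∈ k) (hv : ∀ i, v i ∈ k) :
    ζ * polar Q ((P : Matrix ι ι F) *ᵥ u) ((P : Matrix ι ι F) *ᵥ v) ∈ k := by
  have := k.sub_mem (k.sub_mem (h (u + v) fun i => k.add_mem (hu i) (hv i)) (h u hu)) (h v hv)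
  convert this using 1
  simp only [polar, mulVec_add]
  ring

theorem single_mem_subfield (i j : ι) : (Pi.single i 1 : ι → F) j ∈ k := by
  rw [Pi.single_apply]
  split_ifs
  exacts [k.one_mem, k.zero_mem]

theorem det_mem_subfield {A : Matrix ι ι F} (h : ∀ i j, A i j ∈ k) : A.det ∈ k := by
  rw [det_apply']
  exact k.sum_mem fun σ _ => k.mul_mem (intCast_mem k _) (k.prod_mem fun i _ => h _ _)

theorem subfieldSubgroup_mul_scalar (c : Fˣ) :
    subfieldSubgroup k (scalarGL ι c * P) = subfieldSubgroup k P := by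
  have : MulAut.conj (scalarGL ι c * P) = MulAut.conj P := by
    ext1 g
    rw [map_mul, MulAut.mul_apply, MulAut.conj_apply, ← scalarGL_comm, mul_inv_cancel_right]
  rw [subfieldSubgroup, subfieldSubgroup, this]

/-- In odd dimension the multiplier can be removed. -/
theorem exists_rational_of_odd (hQ : (polarBilin Q).Nondegenerate) (hn : Odd (Fintype.card ι))
    (h1 : ∀ i j, polar Q (Pi.single i 1) (Pi.single j 1) ∈ k) (hζ : ζ ≠ 0)
    (h : IsQuadFormRationalStructure (fun v => ζ * Q v) k P) :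
    ∃ P', IsQuadFormRationalStructure Q k P' ∧ subfieldSubgroup k P' = subfieldSubgroup k P := by
  obtain ⟨m, hm⟩ := hn
  let b := (Pi.basisFun F ι).map (glLin ι F P)
  have hb : ∀ i, b i = (P : Matrix ι ι F) *ᵥ Pi.single i 1 := fun i => by simp [b]
  obtain ⟨s, hs, h2⟩ := (Known.sqEq_disc Q b).symm.trans (Known.sqEq_disc_single Q)
  have h3 := det_mem_subfield (A := ζ • Known.gram Q b) fun i j => by
    rw [Matrix.smul_apply, Known.gram_apply, hb, hb]
    exact polar_mem_of_rational h (single_mem_subfield i) (single_mem_subfield j)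
  have h4 := det_mem_subfield (A := Known.gram Q fun i => Pi.single i 1) h1
  have h5 := (Known.sqEq_disc_single Q).ne_zero_iff.1 (Known.disc_ne_zero hQ)
  rw [det_smul, h2, hm] at h3
  refine ⟨_, fun u hu => ?_, subfieldSubgroup_mul_scalar
    (Units.mk0 (ζ ^ (m + 1) * s) (mul_ne_zero (pow_ne_zero _ hζ) hs))⟩
  rw [coe_scalarGL_mul, smul_mulVec, Q_smul, Units.val_mk0]
  convert k.mul_mem (k.div_mem h3 h4) (h u hu) using 1
  field_simp
  ring

theorem polar_quadOdd_single_mem (m : ℕ) (i j : Unit ⊕ (Fin m ⊕ Fin m)) :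
    polar (quadOdd m F) (Pi.single i 1) (Pi.single j 1) ∈ k := by
  have key : ∀ u : Unit ⊕ (Fin m ⊕ Fin m) → F, (∀ i, u i ∈ k) → quadOdd m F u ∈ k := fun u hu =>
    coe_quadOdd (F := F) m ▸ k.add_mem (k.pow_mem (hu _) 2) (k.sum_mem fun _ _ => k.mul_mem (hu _) (hu _))
  exact k.sub_mem (k.sub_mem (key _ fun l => k.add_mem (single_mem_subfield i l)
    (single_mem_subfield j l)) (key _ (single_mem_subfield i))) (key _ (single_mem_subfield j))

theorem exists_root_quadratic [Fintype F] (hcard : Fintype.card F = Nat.card k ^ 2) (b c : k) :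
    ∃ x : F, x ^ 2 + b * x + c = 0 := by
  let p : Polynomial k := Polynomial.X ^ 2 + Polynomial.C b * Polynomial.X + Polynomial.C c
  have hd : p.natDegree = 2 := by simp only [p]; compute_degree!
  have hev : ∀ x : F, Polynomial.aeval x p = x ^ 2 + b * x + c := fun x => by simp [p]; rfl
  by_cases hp : Irreducible p
  · have := Fact.mk hp
    have h1 : finrank k (AdjoinRoot p) = 2 := by
      rw [(AdjoinRoot.powerBasis hp.ne_zero).finrank, AdjoinRoot.powerBasis_dim, hd]
    have h2 : finrank k F = 2 := Nat.pow_right_injective (Finite.one_lt_card (α := k)) (by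
      simp only
      rw [← natCard_eq_pow_finrank, Nat.card_eq_fintype_card, hcard])
    have : FiniteDimensional k (AdjoinRoot p) := .of_finrank_pos (by omega)
    have : Finite (AdjoinRoot p) := Module.finite_of_finite k
    obtain ⟨φ⟩ := FiniteField.nonempty_algHom_of_finrank_dvd (F := k) (K := AdjoinRoot p) (L := F)
      (by rw [h1, h2])
    exact ⟨φ (AdjoinRoot.root p), by
      rw [← hev, Polynomial.aeval_algHom_apply, AdjoinRoot.aeval_eq, AdjoinRoot.mk_self, map_zero]⟩
  · rw [Polynomial.irreducible_iff_roots_eq_zero_of_degree_le_three (by omega) (by omega)] at hp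
    obtain ⟨x, hx⟩ := Multiset.exists_mem_of_ne_zero hp
    refine ⟨x, ?_⟩
    rw [← hev]
    exact (Polynomial.aeval_algebraMap_apply F x p).trans (by
      rw [Polynomial.coe_aeval_eq_eval, (Polynomial.isRoot_of_mem_roots hx).eq_zero, map_zero])

theorem isPlus_of_ratStr {V : Type*} [AddCommGroup V] [Module F V] [Finite V] [Finite F]
    {Q : QuadraticForm F V} {R : Submodule k V} (h : RatStr Q k R)
    (hQ : (polarBilin Q).Nondegenerate) {m : ℕ} (hn : finrank F V = 2 * (m + 1))
    (hk : ∀ b c : k, ∃ x : F, x ^ 2 + b * x + c = 0) : Known.IsPlus Q := by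
  have : FiniteDimensional F V := Module.Finite.of_finite
  obtain ⟨e, f, H, he, hf⟩ := h.exists_isHyp hQ (m := m) (by omega)
  let π : V →ₗ[F] V := LinearMap.id - Known.hypComb F e f ∘ₗ Known.hypCoord Q e f
  have h1 : ∀ x ∈ R, π x ∈ R := fun x hx => R.sub_mem hx (by
    rw [LinearMap.comp_apply, Known.hypComb_apply]
    exact R.add_mem (R.sum_mem fun i _ => smul_mem_of_mem (h.polar_mem (hf i) hx) (he i))
      (R.sum_mem fun i _ => smul_mem_of_mem (h.polar_mem (he i) hx) (hf i)))
  have h2 : ∀ a, ∃ x ∈ R, π x ∉ Submodule.span F {a} := fun a => by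
    by_contra! h3
    have h4 : Known.hypPerp Q e f ≤ Submodule.span F {a} := fun x hx => by
      have h5 : (⊤ : Submodule F V) ≤ (Submodule.span F {a}).comap π :=
        h.span ▸ Submodule.span_le.2 h3
      have h6 : π x = x := by
        rw [Known.hypPerp, LinearMap.mem_ker] at hx
        simp [π, hx]
      exact h6 ▸ h5 Submodule.mem_top
    have h5 := (Submodule.finrank_mono h4).trans (finrank_span_le_card _)
    have h6 := H.finrank_perp
    simp at h5 h6
    omega
  obtain ⟨z, hz, hz0, hz1⟩ : ∃ z ∈ Known.hypPerp Q e f, z ≠ 0 ∧ Q z = 0 := by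
    obtain ⟨a, ha, ha'⟩ := h2 0
    obtain ⟨b, hb, hb'⟩ := h2 (π a)
    by_cases h3 : Q (π a) = 0
    · exact ⟨π a, H.sub_comb_mem a, by simpa using ha', h3⟩
    obtain ⟨x, hx⟩ := hk ⟨_, k.div_mem (h.polar_mem (h1 a ha) (h1 b hb)) (h.val _ (h1 a ha))⟩
      ⟨_, k.div_mem (h.val _ (h1 b hb)) (h.val _ (h1 a ha))⟩
    refine ⟨x • π a + π b, add_mem (Submodule.smul_mem _ _ (H.sub_comb_mem a)) (H.sub_comb_mem b),
      fun h4 => hb' ?_, ?_⟩
    · rw [eq_neg_of_add_eq_zero_right h4]
      exact neg_mem (Submodule.smul_mem _ _ (Submodule.mem_span_singleton_self _))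
    · qsimp
      field_simp at hx
      linear_combination hx
  obtain ⟨y, hy, hzy⟩ := Known.exists_hyp_partner (H.perp_nondegenerate hQ) (x := ⟨z, hz⟩)
    (fun h => hz0 (congrArg Subtype.val h)) hz1
  exact (H.cons hz y.2 hz1 hy hzy).isPlus (by simp [hn])

/-- A form defined over a subfield of index two has plus type. -/
theorem isPlus_of_subfield [Fintype F] (hQ : (polarBilin Q).Nondegenerate) {m : ℕ}
    (hn : Fintype.card ι = 2 * (m + 1)) (hcard : Fintype.card F = Nat.card k ^ 2) (hζ : ζ ≠ 0)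
    (h : IsQuadFormRationalStructure (fun v => ζ * Q v) k P) : Known.IsPlus Q := by
  obtain ⟨W, hW, hW'⟩ := isPlus_of_ratStr (Q := ζ • Q) ⟨span_ratSpan k P, fun x hx => by
      have := h _ hx
      rwa [mulVec_mulVec, Units.mul_inv, one_mulVec] at this⟩
    (nondeg_of fun u hu => nondeg_left hQ fun v => by
      have := hu v
      rw [FunLike.coe_smul, polar_smul, smul_eq_zero] at this
      exact this.resolve_left hζ) (by simpa using hn) (exists_root_quadratic hcard)
  exact ⟨W, fun w hw => (mul_eq_zero.1 (hW w hw)).resolve_left hζ, hW'⟩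

end Subfield

end Cfsg.Lib.Class.AO
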