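import Cfsg.Agent.Class.AO.Field
import Cfsg.Agent.Class.AO.Descent
import Cfsg.Agent.Class.OUnit

/-!
A self-adjoint extension field over which the space is a plane.
-/

set_option autoImplicit false

namespace Cfsg.Lib.Class.AO

open QuadraticMap Module Orth OMax Cfsg.Geo Matrix Asch
open scoped MatrixGroups

variable {F : Type*} [Field F] [Fintype F] {ι : Type} [Fintype ι] [DecidableEq ι]
  {Q : QuadraticForm F (ι → F)} {K : Subalgebra F (Matrix ι ι F)} {r : ℕ}

/-- Matrices commuting with `K` and representing `Q`. -/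
def repSet (Q : (ι → F) → F) (K : Subalgebra F (Matrix ι ι F)) : Set (Matrix ι ι F) :=
  {s | (∀ k ∈ K, s * k = k * s) ∧ ∀ v, polar Q (s *ᵥ v) v = Q v}

theorem repSet_spec [Nonempty ι] (hQ : (polarBilin Q).Nondegenerate) (hK : IsFieldSubalgebra r K)
    (hs : IsSelfAdjointFor (polar Q) K) (hn : Fintype.card ι = 2 * r) :
    (∀ s ∈ repSet Q K, ∀ s' ∈ repSet Q K, s * s' = s' * s) ∧ ∃ s ∈ repSet Q K, s ∉ K := by
  let _ := (isField_of_isFieldSubalgebra hK).toField
  have : Finite K := Finite.of_injective _ Subtype.val_injective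
  obtain ⟨R, hR⟩ := exists_isDesc (K := K) (Q := Q) fun k => hs k k.2
  have h2 : finrank K (ι → F) = 2 := by
    have h := finrank_mul_finrank F K (ι → F)
    have h0 : 0 < r := by have := Fintype.card_pos (α := ι); omega
    rw [hK.finrank_eq, finrank_fintype_fun_eq_card, hn, mul_comm] at h
    exact Nat.eq_of_mul_eq_mul_right h0 h
  have : FiniteDimensional K (ι → F) := .of_finrank_pos (by omega)
  refine ⟨fun s h s' h' => ?_, ?_⟩
  · have key : ∀ s ∈ repSet Q K, ∃ t : (ι → F) →ₗ[K] (ι → F), (∀ v, t v = s *ᵥ v) ∧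
        ∀ v, polar R (t v) v = R v := fun s h => by
      have h3 : ∀ (k : K) v, s *ᵥ (k • v) = k • (s *ᵥ v) := fun k v => by
        change s *ᵥ (k.1 *ᵥ v) = k.1 *ᵥ (s *ᵥ v)
        rw [mulVec_mulVec, mulVec_mulVec, h.1 k k.2]
      refine ⟨⟨⟨fun v => s *ᵥ v, mulVec_add s⟩, h3⟩, fun _ => rfl, fun v =>
        eq_of_trace_sq (F := F) fun x => ?_⟩
      rw [hR.sq, hR.polar, mul_smul, ← h.2, h3]
      exact hs x x.2 _ _
    obtain ⟨t, h3, h4⟩ := key s h
    obtain ⟨t', h5, h6⟩ := key s' h'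
    refine matrix_ext_mulVec fun v => ?_
    have := congr($(comm_of_plane (hR.nondeg hQ) h2 h4 h6) v)
    rwa [Module.End.mul_apply, Module.End.mul_apply, h3, h5, h5, h3, mulVec_mulVec,
      mulVec_mulVec] at this
  · obtain ⟨t, h3, h4⟩ := exists_not_symm (hR.nondeg hQ) h2.ge
    have h5 : ∀ v, LinearMap.toMatrix' (t.restrictScalars F) *ᵥ v = t v := fun v =>
      LinearMap.toMatrix'_mulVec _ v
    refine ⟨LinearMap.toMatrix' (t.restrictScalars F), ⟨fun k hk => matrix_ext_mulVec fun v => ?_,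
      fun v => ?_⟩, fun hk => h4 fun u v => ?_⟩
    · rw [← mulVec_mulVec, ← mulVec_mulVec, h5, h5]
      exact t.map_smul (⟨k, hk⟩ : K) v
    · rw [h5, ← hR, ← h3, ← one_smul K (t v), ← hR.polar, one_smul, one_mul]
    · rw [← h5, ← h5]
      exact (polar_smul_left' (⟨_, hk⟩ : K) u v).trans (polar_smul_right' (⟨_, hk⟩ : K) u v).symm

theorem exists_sim_of_rep {Q : (ι → F) → F} (hQ : IsNondegenerateQuadraticForm Q)
    {L : Subalgebra F (Matrix ι ι F)} (hL : IsFieldSubalgebra 2 L)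
    (h1 : ∀ x ∈ L, adj (RingEquiv.refl F) (polar Q) x ∈ L) (h2 : ¬ IsSelfAdjointFor (polar Q) L)
    {s : Matrix ι ι F} (hs : ∀ k ∈ L, s * k = k * s) (hs' : ∀ v, polar Q (s *ᵥ v) v = Q v)
    {k : Matrix ι ι F} (hk : k ∈ L) : ∃ c : F, ∀ v, Q (k *ᵥ v) = c * Q v := by
  have hf := isSesq_polar hQ
  obtain ⟨T, hT, -, hT'⟩ := exists_gen_of_isFieldSubalgebra hL
  obtain ⟨a, b, h3⟩ := hT' _ (L.mul_mem (h1 k hk) hk)
  have h4 : b = 0 := by
    by_contra hb
    refine h2 (hf.isSelfAdjointFor_iff.2 fun x hx => ?_)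
    obtain ⟨c, d, rfl⟩ := hT' x hx
    have h5 := congrArg (adj (RingEquiv.refl F) (polar Q)) h3
    rw [hf.adj_mul, hf.adj_adj, ← h3, hf.adj_add, hf.adj_smul_one, hf.adj_smul,
      RingEquiv.refl_apply, RingEquiv.refl_apply, add_right_inj] at h5
    rw [hf.adj_add, hf.adj_smul_one, hf.adj_smul, smul_right_injective _ hb h5]
    rfl
  refine ⟨a, fun v => ?_⟩
  rw [← hs', mulVec_mulVec, hs k hk, ← mulVec_mulVec, hf.adj_spec, mulVec_mulVec, ← h3, h4,
    zero_smul, add_zero, smul_mulVec, one_mulVec, hf.pre.smul_right, hs']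
  rfl

theorem plane_cases {Q : (ι → F) → F} (hQ : IsNondegenerateQuadraticForm Q) (hr : 2 ≤ r)
    (hK : IsFieldSubalgebra r K) (hs : IsSelfAdjointFor (polar Q) K)
    (hn : Fintype.card ι = 2 * r) {H : Subgroup (GL ι F)} (hH : H ≤ isometryGroup F Q)
    (hI : Irr H) (hle : H ≤ subalgebraNormalizer K) :
    (∃ (t k : ℕ) (D : Fin t → Submodule F (ι → F)), k ≠ 1 ∧ IsOrthogonalMDecomposition Q k D ∧
      H ≤ decompositionStabilizer D) ∨
    (∃ (k : ℕ) (D : Fin 2 → Submodule F (ι → F)), IsMDecomposition k D ∧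
      (∀ i, IsTotallySingularQuad Q (D i)) ∧ H ≤ decompositionStabilizer D) ∨
    (∃ L : Subalgebra F (Matrix ι ι F), IsFieldSubalgebra 2 L ∧ IsSelfAdjointFor (polar Q) L ∧
      H ≤ subalgebraNormalizer L) ∨
    (∃ L : Subalgebra F (Matrix ι ι F), IsFieldSubalgebra 2 L ∧ IsAdjointClosedFor (polar Q) L ∧
      ¬ IsSelfAdjointFor (polar Q) L ∧ (∀ k ∈ L, ∃ c : F, ∀ v, Q (k *ᵥ v) = c * Q v) ∧
      H ≤ subalgebraNormalizer L) := by
  have : Nonempty ι := Fintype.card_pos_iff.1 (by omega)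
  have hf := isSesq_polar hQ
  obtain ⟨h1, s, hs1 : s ∈ repSet Q K, hs2⟩ :=
    repSet_spec (Q := geoQuad hQ) (geoQuad_nondegenerate hQ) hK hs hn
  let C := Algebra.adjoin F ((K : Set (Matrix ι ι F)) ∪ repSet Q K)
  have hKC : K ≤ C := fun x hx => Algebra.subset_adjoin (Or.inl hx)
  have hsC : s ∈ C := Algebra.subset_adjoin (Or.inr hs1)
  have hC : ∀ x ∈ C, ∀ y ∈ C, x * y = y * x := fun x hx y hy => by
    refine Algebra.adjoin_le_centralizer_centralizer F _ hy x fun z hz => ?_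
    refine Algebra.adjoin_le_centralizer_centralizer F _ hx z ?_
    rintro w (hw | hw) <;> rcases hz with hz | hz
    exacts [hK.comm w hw z hz, (hz.1 w hw).symm, hw.1 z hz, h1 w hw z hz]
  have hNK := nrm_of_le_subalgebraNormalizer hle
  have hN : Nrm H (C : Set (Matrix ι ι F)) := fun g hg x hx => by
    refine (Algebra.adjoin_le (S := C.comap (cj g : Matrix ι ι F →ₐ[F] Matrix ι ι F)) ?_ : C ≤ _) hx
    rintro y (hy | hy)
    · exact hKC (hNK g hg y hy)
    refine Algebra.subset_adjoin (Or.inr ⟨fun k hk => ?_, fun v => ?_⟩)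
    · obtain ⟨k, rfl⟩ := (cj g).surjective k
      exact (map_mul (cj g) y k).symm.trans
        ((congrArg (cj g) (hy.1 k ((hNK.iff hg k).1 hk))).trans (map_mul (cj g) k y))
    · obtain ⟨v, rfl⟩ := (glLin ι F g).surjective v
      change polar Q (cj g y *ᵥ (g.1 *ᵥ v)) (g.1 *ᵥ v) = Q (g.1 *ᵥ v)
      rw [cj_mulVec, mem_isoms.1 (isometryGroup_le_isoms Q (hH hg)), hy.2,
        (mem_isometryGroup Q g).1 (hH hg)]
  have hC' : ∀ x ∈ C, adj (RingEquiv.refl F) (polar Q) x ∈ C := fun x hx => by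
    induction hx using Algebra.adjoin_induction with
    | mem y hy =>
      rcases hy with hy | hy
      · exact hKC ((hf.isSelfAdjointFor_iff.1 hs y hy).symm ▸ hy)
      · refine Algebra.subset_adjoin (Or.inr ⟨fun k hk => ?_, fun v => ?_⟩)
        · rw [← hf.isSelfAdjointFor_iff.1 hs k hk, ← hf.adj_mul, ← hf.adj_mul, hy.1 k hk]
        · rw [polar_comm, ← hf.adj_spec, hy.2]
    | algebraMap c => rw [Algebra.algebraMap_eq_smul_one, hf.adj_smul_one]; exact C.smul_mem C.one_mem _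
    | add y z _ _ hy hz => rw [hf.adj_add]; exact C.add_mem hy hz
    | mul y z _ _ hy hz => rw [hf.adj_mul]; exact C.mul_mem hz hy
  rcases hI.idem_or_field hC hN with ⟨a, ha, h2, h3, h4⟩ | h
  · rcases hI.exists_idemSys_of_comm_form hf (hH.trans ((isometryGroup_le_isoms Q).trans
      (isoms_le_similarityGroup _))) hC hN hC' ha h2 h3 h4 with ⟨t, E, hE, h5, h6⟩ | ⟨E, hE, h5, h6⟩
    · let i : Fin t := ⟨0, by have := hE.two_le; omega⟩
      refine Or.inl ⟨t, _, _, fun h7 => ?_, ⟨hE.isNondegenerateMDecomposition hf h6 i,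
        hE.areIsometricFor hH⟩, hE.le_decompositionStabilizer⟩
      obtain ⟨x, hx, hx'⟩ := AL.IsFieldSubalgebra.exists_nonscalar hr hK
      obtain ⟨v, hv⟩ := exists_mulVec_ne_zero (hE.ne_zero i)
      obtain ⟨c, hc⟩ := (finrank_eq_one_iff_of_nonzero' (⟨_, mulVec_mem_rng (E i) v⟩ : rng (E i))
        (fun h => hv (congrArg Subtype.val h))).1 h7 ⟨_, mulVec_mem_rng (E i) (x *ᵥ v)⟩
      refine hx' c (eq_smul_one_of_eigen hK hx hv ?_)
      rw [mulVec_mulVec, hC x (hKC hx) _ (h5 i), ← mulVec_mulVec]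
      exact (congrArg Subtype.val hc).symm
    · refine Or.inr (Or.inl ⟨_, _, hE.isMDecomposition 0, fun i => ?_, hE.le_decompositionStabilizer⟩)
      rintro _ ⟨v, rfl⟩
      rw [toLin'_apply, ← hs1.2, mulVec_mulVec, hC s hsC _ (h5 i), ← mulVec_mulVec]
      exact hE.isTotallySingularFor hf h6 i _ (mulVec_mem_rng _ _) _ (mulVec_mem_rng _ _)
  have h2 : 2 ∣ finrank F C := by
    obtain ⟨a, ha⟩ := IsFieldSubalgebra.dvd_card h
    obtain ⟨b, hb⟩ : r ∣ finrank F C := by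
      let _ := (isField_of_isFieldSubalgebra hK).toField
      let _ : Algebra K C := (Subalgebra.inclusion hKC).toRingHom.toAlgebra' fun c x =>
        Subtype.ext (hC _ (hKC c.2) _ x.2)
      have : IsScalarTower F K C := .of_algebraMap_eq fun _ => rfl
      exact hK.finrank_eq ▸ Dvd.intro _ (finrank_mul_finrank F K C)
    have h3 : b * a = 2 := Nat.eq_of_mul_eq_mul_left (show 0 < r by omega) (by
      rw [← mul_assoc, ← hb, ← ha, hn, mul_comm])
    obtain rfl | rfl := (Nat.dvd_prime Nat.prime_two).1 (Dvd.intro _ h3)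
    · refine (hs2 (?_ : s ∈ K)).elim
      rwa [Subalgebra.eq_of_le_of_finrank_eq hKC (by rw [hb, hK.finrank_eq, mul_one])]
    · exact hb ▸ Dvd.intro_left _ rfl
  obtain ⟨L, hL, hL'⟩ := IsFieldSubalgebra.exists_le h h2
  have h3 := (IsFieldSubalgebra.nrm_of_le h hL hN).le_subalgebraNormalizer
  have h4 := IsFieldSubalgebra.adj_mem_of_le h hL hf hC'
  by_cases h5 : IsSelfAdjointFor (polar Q) L
  · exact Or.inr (Or.inr (Or.inl ⟨L, hL', h5, h3⟩))
  · exact Or.inr (Or.inr (Or.inr ⟨L, hL', hf.isAdjointClosedFor h4, h5, fun k hk =>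
      exists_sim_of_rep hQ hL' h4 h5 (fun k hk => hC s hsC k (hL hk)) hs1.2 hk, h3⟩))

end Cfsg.Lib.Class.AO
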