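import Cfsg.Agent.Class.AO.Cases

/-!
The alternatives for a maximal subgroup of an orthogonal group in odd dimension.
-/

set_option autoImplicit false

namespace Cfsg.Lib.Class.AO

open QuadraticMap Module Orth OMax Cfsg.Geo Matrix Asch
open scoped MatrixGroups

variable {F : Type*} [Field F] [Fintype F] {m : ℕ} {H : Subgroup (GL (Unit ⊕ (Fin m ⊕ Fin m)) F)}

theorem card_odd (m : ℕ) : Fintype.card (Unit ⊕ (Fin m ⊕ Fin m)) = 2 * m + 1 := by
  simp; omega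

theorem odd_cases (hodd : Odd (Fintype.card F)) (hm : 3 ≤ m) (hm' : m ≤ 6)
    (hH : IsMaximalIn (omegaGL (quadFormOdd m F)) H) :
    (∃ W : Submodule F (Unit ⊕ (Fin m ⊕ Fin m) → F), W ≠ ⊥ ∧
      IsTotallySingularQuad (quadFormOdd m F) W ∧
      H = subspaceStabilizer W ⊓ omegaGL (quadFormOdd m F)) ∨
    (∃ W : Submodule F (Unit ⊕ (Fin m ⊕ Fin m) → F), W ≠ ⊥ ∧ Even (finrank F W) ∧
      IsNondegenerateOn (polar (quadFormOdd m F)) W ∧
      ¬ (Fintype.card F = 3 ∧ finrank F W = 2 ∧ IsPlusTypeOn (quadFormOdd m F) W) ∧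
      H = subspaceStabilizer W ⊓ omegaGL (quadFormOdd m F)) ∨
    ((Fintype.card F).Prime ∧ ∃ D : Fin (2 * m + 1) → Submodule F (Unit ⊕ (Fin m ⊕ Fin m) → F),
      IsOrthogonalMDecomposition (quadFormOdd m F) 1 D ∧
      H = decompositionStabilizer D ⊓ omegaGL (quadFormOdd m F)) ∨
    (m = 4 ∧ 5 ≤ Fintype.card F ∧ ∃ D : Fin 3 → Submodule F (Unit ⊕ (Fin m ⊕ Fin m) → F),
      IsOrthogonalMDecomposition (quadFormOdd m F) 3 D ∧
      H = decompositionStabilizer D ⊓ omegaGL (quadFormOdd m F)) ∨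
    (m = 4 ∧ ∃ K, IsFieldSubalgebra 3 K ∧ IsSelfAdjointFor (polar (quadFormOdd m F)) K ∧
      H = subalgebraNormalizer K ⊓ omegaGL (quadFormOdd m F)) ∨
    (∃ (F₀ : Subfield F) (r : ℕ) (P : GL (Unit ⊕ (Fin m ⊕ Fin m)) F), r.Prime ∧
      Fintype.card F = Nat.card F₀ ^ r ∧ IsQuadFormRationalStructure (quadFormOdd m F) F₀ P ∧
      H = subfieldSubgroup F₀ P ⊓ omegaGL (quadFormOdd m F)) ∨
    (m = 4 ∧ 5 ≤ Fintype.card F ∧ ∃ (e : (Unit ⊕ (Fin m ⊕ Fin m)) ≃ (Fin 2 → Fin 3))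
      (P : GL (Unit ⊕ (Fin m ⊕ Fin m)) F) (f₁ : (Fin 3 → F) → (Fin 3 → F) → F),
      IsSymmetricForm f₁ ∧ IsTensorPowerFormStructure id (polar (quadFormOdd m F)) f₁ e P ∧
      H = tensorWreathSubgroup 3 2 e P ⊓ omegaGL (quadFormOdd m F)) ∨
    InOrthogonalResidualClass H := by
  have h2 := two_ne_zero_of_odd_card hodd
  have hQ := isNondegenerateQuadraticForm_quadFormOdd h2 m
  have hn := card_odd m
  have hq : Fintype.card F ≠ 3 → 5 ≤ Fintype.card F := fun h => by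
    have := Fintype.one_lt_card (α := F)
    rw [Nat.odd_iff] at hodd
    omega
  rcases maxCase hQ (by omega) hH with ⟨W, h0, h1, -, h⟩ | ⟨W, W', hW, hW', -, -, h, -⟩ | ⟨h, -⟩ |
    ⟨t, k, D, h0, h1, h3, hD, h4, h⟩ | ⟨k, D, -, h0, -⟩ | ⟨r, K, h0, h1, h3, -, -, hK, hs, h⟩ |
    ⟨K, h0, -⟩ | ⟨d, k, e, P, f₁, f₂, h0, -, h1, h3, h4, -⟩ | ⟨d, k, e, P, f₁, f₂, h0, h1, -⟩ |
    ⟨k, r, P, ζ, hr, h0, -, h1, h3, h⟩ | ⟨k, h0, -⟩ | ⟨k, t, e, P, f, h0, -, h1, h3, h4, h5, h6, h⟩ |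
    ⟨k, t, e, P, f, h0, h1, h3, -⟩ | h
  · exact Or.inl ⟨W, h0, h1, h⟩
  · have key : ∀ W, NdAlt (quadFormOdd m F) H W → Even (finrank F W) → ∃ W : Submodule F
        (Unit ⊕ (Fin m ⊕ Fin m) → F), W ≠ ⊥ ∧ Even (finrank F W) ∧
        IsNondegenerateOn (polar (quadFormOdd m F)) W ∧
        ¬ (Fintype.card F = 3 ∧ finrank F W = 2 ∧ IsPlusTypeOn (quadFormOdd m F) W) ∧
        H = subspaceStabilizer W ⊓ omegaGL (quadFormOdd m F) := fun W ⟨a, _, b, _, c, d⟩ h =>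
      ⟨W, a, h, b, fun ⟨x, y, z⟩ => by have := c y z; omega, d⟩
    refine Or.inr (Or.inl ?_)
    by_cases h0 : Even (finrank F W)
    · exact key W hW h0
    · exact key W' hW' (by rw [Nat.even_iff] at *; omega)
  · exact absurd hodd h
  · obtain rfl | ⟨rfl, rfl, rfl⟩ : k = 1 ∨ (m = 4 ∧ t = 3 ∧ k = 3) := by
      rw [hn] at h1
      have h5 : t ≤ 13 := Nat.le_of_dvd (by omega) (Dvd.intro _ h1.symm) |>.trans (by omega)
      interval_cases t <;> omega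
    · obtain rfl : t = 2 * m + 1 := by omega
      exact Or.inr (Or.inr (Or.inl ⟨h3 rfl, D, hD, h⟩))
    · exact Or.inr (Or.inr (Or.inr (Or.inl ⟨rfl, hq fun h5 => h4 (by omega)
        (Or.inr (Or.inl ⟨rfl, h5⟩)), D, hD, h⟩)))
  · omega
  · obtain ⟨rfl, rfl⟩ : m = 4 ∧ r = 3 := by
      rw [hn] at h1 h3
      have h5 := Nat.le_of_dvd (by omega) h1
      have h6 := h0.two_le
      obtain ⟨c, hc⟩ := h1
      have h7 : r ≤ 13 := by omega
      interval_cases r <;> omega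
    exact Or.inr (Or.inr (Or.inr (Or.inr (Or.inl ⟨rfl, K, hK, hs, h⟩))))
  · omega
  · exfalso
    rw [hn] at h0
    have h5 : d < k := h4 (by
      by_contra h5
      have := (Nat.not_odd_iff_even.1 h5).mul_right k
      rw [← h0, Nat.even_iff] at this
      omega)
    have h6 : d ≤ 3 := by nlinarith
    interval_cases d
    omega
  · have := h1.mul_right k
    rw [← h0, Nat.even_iff] at this
    omega
  · obtain ⟨P', h4, h5⟩ := exists_rational_of_odd (Q := quadOdd m F) (quadOdd_nondegenerate h2 m)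
      ⟨m, hn⟩ (polar_quadOdd_single_mem m) h1 (P := P) (by rwa [coe_quadOdd])
    rw [coe_quadOdd] at h4
    rw [← h5] at h
    exact Or.inr (Or.inr (Or.inr (Or.inr (Or.inr (Or.inl ⟨k, r, P', hr, h0, h4, h⟩)))))
  · obtain rfl | ⟨k, rfl⟩ := k.eq_zero_or_eq_succ_pred.imp_right fun h => (⟨_, h⟩ : ∃ l, k = l + 1)
    · omega
    · omega
  · obtain ⟨rfl, -⟩ | ⟨rfl, rfl⟩ := pow_cases h0 h3 (by omega) (by omega)
    · omega
    iterate 6 right
    exact Or.inl ⟨by omega, hq fun h => h4 ⟨h, rfl⟩, e, P, f, h5, h6, AL.eq_inf_of_le hH h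
      (not_le_wreath_two (geoQuad_nondegenerate hQ) hodd le_rfl h5 h6)⟩
  · have := (Nat.even_pow' (by omega : t ≠ 0)).2 h1
    rw [← h0, Nat.even_iff] at this
    omega
  · iterate 7 right
    exact h

end Cfsg.Lib.Class.AO
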