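import Cfsg.Agent.Class.AO.Basic

/-!
Tensor decompositions of a quadratic space and the non-maximal tensor stabilisers.
-/

set_option autoImplicit false

namespace Cfsg.Lib.Class.AO

open QuadraticMap Module Orth OMax

variable {F V A B : Type*} [Field F] [AddCommGroup V] [Module F V] [AddCommGroup A] [Module F A]
  [AddCommGroup B] [Module F B] {Q : QuadraticForm F V}

theorem exists_bilin_pair [FiniteDimensional F A] {f : LinearMap.BilinForm F A}
    (hf : f.Nondegenerate) {u v : A} (h : LinearIndependent F ![u, v]) (a b : F) :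
    ∃ w, f u w = a ∧ f v w = b := by
  obtain ⟨φ, hφ⟩ := LinearMap.exists_extend ((Finsupp.linearCombination F ![a, b]).comp h.repr)
  obtain ⟨w, hw⟩ := (LinearMap.BilinForm.toDual f.flip hf.flip).surjective φ
  have key : ∀ i, f (![u, v] i) w = ![a, b] i := fun i => by
    have h1 : φ (![u, v] i) = _ := congr($hφ ⟨![u, v] i, Submodule.subset_span ⟨i, rfl⟩⟩)
    have h2 : f (![u, v] i) w = φ (![u, v] i) := by rw [← hw]; rfl
    rw [h2, h1, LinearMap.comp_apply, h.repr_eq_single i _ rfl]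
    simp
  exact ⟨w, key 0, key 1⟩

theorem li_of_bilin {f : LinearMap.BilinForm F A} {u v w : A} (hv : v ≠ 0) (h1 : f u w ≠ 0)
    (h2 : f v w = 0) : LinearIndependent F ![u, v] := by
  refine LinearIndependent.pair_iff.2 fun s t h => ?_
  have h3 := congrArg (f · w) h
  simp only [map_add, map_smul, LinearMap.add_apply, LinearMap.smul_apply, h2, smul_eq_mul,
    mul_zero, add_zero, map_zero, LinearMap.zero_apply, mul_eq_zero, h1, or_false] at h3
  rw [h3, zero_smul, zero_add] at h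
  exact ⟨h3, (smul_eq_zero.1 h).resolve_right hv⟩

/-- A linear map normalised in a field-like way by the Eichler transformations has an
eigenvector. -/
theorem exists_eigen_of_eich [Finite F] [FiniteDimensional F V]
    (hQ : (polarBilin Q).Nondegenerate) (hn : 5 ≤ finrank F V) (κ : V →ₗ[F] V)
    (h : ∀ p w, (∀ v, (eich Q p w).1 (κ v) = κ ((eich Q p w).1 v)) ∨
      ∀ v, (eich Q p w).1 (κ v) = κ ((eich Q p w).1 v) → v = 0) :
    ∃ p, p ≠ 0 ∧ ∃ c : F, κ p = c • p := by
  obtain ⟨p, -, hp1, hp0⟩ := exists_singular_mem Q (S := ⊤) (by rw [finrank_top]; omega)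
  suffices H : ∀ w, polar Q p w = 0 → (eich Q p w).1 (κ p) = κ p by
    obtain ⟨c, hc⟩ := Submodule.mem_span_singleton.1 (mem_span_of_eich_fix hQ (by omega) hp0 hp1 H)
    exact ⟨p, hp1, c, hc.symm⟩
  intro w hw
  refine ((h p w).resolve_right fun h1 => ?_) p |>.trans ?_
  · have h2 := finrank_orth hQ (Submodule.span F {p, w})
    have h3 := Orth.finrank_span_pair_le (F := F) p w
    set S := orth Q (Submodule.span F {p, w})
    have h4 : finrank F V ≤ finrank F (S.comap κ) + 2 := by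
      have h5 := (S.mkQ ∘ₗ κ).finrank_range_add_finrank_ker
      have h6 := (LinearMap.range (S.mkQ ∘ₗ κ)).finrank_le
      have h7 := S.finrank_quotient_add_finrank
      rw [LinearMap.ker_comp, Submodule.ker_mkQ] at h5
      omega
    have h5 := Submodule.finrank_sup_add_finrank_inf_eq S (S.comap κ)
    have h6 := (S ⊔ S.comap κ).finrank_le
    obtain ⟨v, hv, hv0⟩ := Submodule.exists_mem_ne_zero_of_ne_bot (p := S ⊓ S.comap κ)
      (by intro h; rw [h, finrank_bot] at h5; omega)
    obtain ⟨a1, a2⟩ := mem_orth_pair.1 hv.1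
    obtain ⟨a3, a4⟩ := mem_orth_pair.1 hv.2
    exact hv0 (h1 v (by
      rw [eich_apply_of_orth_orth (pc a1) (pc a2), eich_apply_of_orth_orth (pc a3) (pc a4)]))
  · rw [eich_apply_of_orth_orth (by rw [polar_self', hp0, mul_zero]) hw]

/-- A tensor decomposition of the polar form of `Q`. -/
structure Tens (Q : QuadraticForm F V) (T : A →ₗ[F] B →ₗ[F] V) (f : LinearMap.BilinForm F A)
    (g : LinearMap.BilinForm F B) : Prop where
  polar_eq : ∀ x y x' y', polar Q (T x y) (T x' y') = f x x' * g y y'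
  ndf : f.Nondegenerate
  ndg : g.Nondegenerate
  span : Submodule.map₂ T ⊤ ⊤ = ⊤
  dim : finrank F V = finrank F A * finrank F B

/-- The stabiliser of a tensor decomposition. -/
def tensG (T : A →ₗ[F] B →ₗ[F] V) : Subgroup (V ≃ₗ[F] V) where
  carrier := {h | ∃ (a : A ≃ₗ[F] A) (b : B ≃ₗ[F] B), ∀ x y, h (T x y) = T (a x) (b y)}
  mul_mem' := by
    rintro h k ⟨a, b, h1⟩ ⟨c, d, h2⟩
    exact ⟨a * c, b * d, fun x y => by simp [h1, h2]⟩
  one_mem' := ⟨1, 1, fun _ _ => rfl⟩
  inv_mem' := by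
    rintro h ⟨a, b, h1⟩
    exact ⟨a.symm, b.symm, fun x y => h.injective (by simp [h1])⟩

variable {T : A →ₗ[F] B →ₗ[F] V} {f : LinearMap.BilinForm F A} {g : LinearMap.BilinForm F B}

theorem map_map₂_of_eq {h : V ≃ₗ[F] V} {a : A ≃ₗ[F] A} {b : B ≃ₗ[F] B}
    (H : ∀ x y, h (T x y) = T (a x) (b y)) (U : Submodule F B) :
    (Submodule.map₂ T ⊤ U).map h.toLinearMap = Submodule.map₂ T ⊤ (U.map b.toLinearMap) := by
  refine le_antisymm (Submodule.map_le_iff_le_comap.2 (Submodule.map₂_le.2 fun x _ y hy => ?_))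
    (Submodule.map₂_le.2 ?_)
  · rw [Submodule.mem_comap, LinearEquiv.coe_coe, H]; exact Submodule.apply_mem_map₂ _ trivial ⟨y, hy, rfl⟩
  · rintro x - _ ⟨y, hy, rfl⟩
    exact ⟨T (a.symm x) y, Submodule.apply_mem_map₂ _ trivial hy, by simp [H]⟩

namespace Tens

theorem ne_zero (h : Tens Q T f g) {x : A} {y : B} (hx : x ≠ 0) (hy : y ≠ 0) : T x y ≠ 0 := by
  intro h0
  obtain ⟨x', hx'⟩ : ∃ x', f x x' ≠ 0 := by by_contra! hc; exact hx (h.ndf.1 x hc)
  obtain ⟨y', hy'⟩ : ∃ y', g y y' ≠ 0 := by by_contra! hc; exact hy (h.ndg.1 y hc)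
  have := h.polar_eq x y x' y'
  rw [h0, polar_zero_left] at this
  exact mul_ne_zero hx' hy' this.symm

theorem injective (h : Tens Q T f g) {x : A} (hx : x ≠ 0) : Function.Injective (T x) :=
  (injective_iff_map_eq_zero _).2 fun _ hy => by_contra fun h0 => h.ne_zero hx h0 hy

theorem ext (h : Tens Q T f g) {P : V → Prop} (h0 : P 0) (hadd : ∀ u v, P u → P v → P (u + v))
    (hT : ∀ x y, P (T x y)) (v : V) : P v := by
  have hv : v ∈ Submodule.map₂ T ⊤ ⊤ := h.span ▸ Submodule.mem_top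
  rw [Submodule.map₂] at hv
  refine Submodule.iSup_induction (motive := P) _ hv ?_ h0 hadd
  rintro x _ ⟨y, -, rfl⟩
  exact hT x y

variable [FiniteDimensional F A] [FiniteDimensional F B]

theorem not_pure (h : Tens Q T f g) {x₁ x₂ : A} {y₁ y₂ : B} (hx : LinearIndependent F ![x₁, x₂])
    (hy : LinearIndependent F ![y₁, y₂]) (x : A) (y : B) : T x₁ y₁ + T x₂ y₂ ≠ T x y := by
  intro h0
  obtain ⟨a, a1, a2⟩ := exists_bilin_pair h.ndf hx 1 0
  obtain ⟨b, b1, b2⟩ := exists_bilin_pair h.ndf hx 0 1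
  obtain ⟨c, c1, c2⟩ := exists_bilin_pair h.ndg hy 1 0
  obtain ⟨d, d1, d2⟩ := exists_bilin_pair h.ndg hy 0 1
  have key : ∀ x' y', f x₁ x' * g y₁ y' + f x₂ x' * g y₂ y' = f x x' * g y y' := fun x' y' => by
    rw [← h.polar_eq, ← h.polar_eq, ← h.polar_eq, ← h0, polar_add_left]
  have h1 := key a c
  have h2 := key b d
  have h3 := key a d
  have h4 := key b c
  simp only [a1, a2, b1, b2, c1, c2, d1, d2, mul_one, mul_zero, add_zero, zero_add] at h1 h2 h3 h4
  exact one_ne_zero (α := F) (by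
    linear_combination (f x b * g y d) * h1 + h2 - (f x b * g y c) * h3)

theorem notMem_of_apply (h : Tens Q T f g) {k : V ≃ₗ[F] V} {x x₁ x₂ : A} {y y₁ y₂ : B}
    (hx : LinearIndependent F ![x₁, x₂]) (hy : LinearIndependent F ![y₁, y₂])
    (hk : k (T x y) = T x₁ y₁ + T x₂ y₂) : k ∉ tensG T :=
  fun ⟨_, _, H⟩ => h.not_pure hx hy _ _ (hk.symm.trans (H x y))

theorem bijective [FiniteDimensional F V] (h : Tens Q T f g) :
    Function.Bijective (TensorProduct.lift T) := by
  have h2 : Function.Surjective (TensorProduct.lift T) := by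
    rw [← LinearMap.range_eq_top, eq_top_iff, ← h.span,
      TensorProduct.map₂_eq_range_lift_comp_mapIncl]
    exact LinearMap.range_comp_le_range _ _
  exact ⟨(LinearMap.injective_iff_surjective_of_finrank_eq_finrank
      (by rw [finrank_tensorProduct, h.dim])).2 h2, h2⟩

theorem exists_map [FiniteDimensional F V] (h : Tens Q T f g) (a : A →ₗ[F] A) (b : B →ₗ[F] B) :
    ∃ J : V →ₗ[F] V, ∀ x y, J (T x y) = T (a x) (b y) := by
  let E := LinearEquiv.ofBijective _ h.bijective
  refine ⟨E.toLinearMap ∘ₗ TensorProduct.map a b ∘ₗ E.symm.toLinearMap, fun x y => ?_⟩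
  rw [show T x y = E (x ⊗ₜ y) from rfl, LinearMap.comp_apply, LinearMap.comp_apply,
    LinearEquiv.coe_coe, LinearEquiv.coe_coe, E.symm_apply_apply]
  rfl

theorem finrank_map₂' [FiniteDimensional F V] (h : Tens Q T f g) (W : Submodule F A)
    (U : Submodule F B) : finrank F (Submodule.map₂ T W U) = finrank F W * finrank F U := by
  rw [TensorProduct.map₂_eq_range_lift_comp_mapIncl, LinearMap.finrank_range_of_inj
    (f := TensorProduct.lift T ∘ₗ TensorProduct.mapIncl W U) (h.bijective.1.comp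
    (TensorProduct.map_injective_of_flat_flat _ _ W.injective_subtype U.injective_subtype)),
    finrank_tensorProduct]

theorem finrank_map₂ [FiniteDimensional F V] (h : Tens Q T f g) (U : Submodule F B) :
    finrank F (Submodule.map₂ T ⊤ U) = finrank F A * finrank F U := by
  rw [h.finrank_map₂', finrank_top]

theorem finrank_inf [FiniteDimensional F V] (h : Tens Q T f g) (U U' : Submodule F B) :
    finrank F (Submodule.map₂ T ⊤ U ⊓ Submodule.map₂ T ⊤ U' : Submodule F V) =
      finrank F A * finrank F (U ⊓ U' : Submodule F B) := by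
  have h1 := Submodule.finrank_sup_add_finrank_inf_eq (Submodule.map₂ T ⊤ U)
    (Submodule.map₂ T ⊤ U')
  have h2 := Submodule.finrank_sup_add_finrank_inf_eq U U'
  rw [← Submodule.map₂_sup_right, h.finrank_map₂, h.finrank_map₂, h.finrank_map₂, ← mul_add,
    ← h2, mul_add] at h1
  omega

theorem exists_mul (h : Tens Q T f g) [Nontrivial B] {k : O Q} {a : A ≃ₗ[F] A} {b : B ≃ₗ[F] B}
    (H : ∀ x y, k.1 (T x y) = T (a x) (b y)) :
    ∃ c : F, ∀ x x', f x x' = c * f (a x) (a x') := by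
  obtain ⟨y, hy⟩ := exists_ne (0 : B)
  obtain ⟨y', hy'⟩ : ∃ y', g y y' ≠ 0 := by by_contra! hc; exact hy (h.ndg.1 y hc)
  refine ⟨g (b y) (b y') / g y y', fun x x' => ?_⟩
  have := O_polar k (T x y) (T x' y')
  rw [H, H, h.polar_eq, h.polar_eq] at this
  field_simp
  linear_combination -this

theorem flip (h : Tens Q T f g) : Tens Q T.flip g f :=
  ⟨fun y x y' x' => (h.polar_eq x y x' y').trans (mul_comm _ _), h.ndg, h.ndf,
    by rw [Submodule.map₂_flip, h.span], by rw [h.dim, mul_comm]⟩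

section Sym

variable {QA : QuadraticForm F A} {QB : QuadraticForm F B}

omit [FiniteDimensional F A] [FiniteDimensional F B] in
theorem polar_eq' (h : Tens Q T (polarBilin QA) (polarBilin QB)) (x : A) (y : B) (x' : A) (y' : B) :
    polar Q (T x y) (T x' y') = polar QA x x' * polar QB y y' := h.polar_eq x y x' y'

omit [FiniteDimensional F A] [FiniteDimensional F B] in
theorem Q_eq (h : Tens Q T (polarBilin QA) (polarBilin QB)) (h2 : (2 : F) ≠ 0) (x : A) (y : B) :
    Q (T x y) = 2 * QA x * QB y := mul_left_cancel₀ h2 (by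
  rw [← polar_self', h.polar_eq', polar_self', polar_self']; ring)

omit [FiniteDimensional F A] [FiniteDimensional F B] in
theorem singular_map₂ (h : Tens Q T (polarBilin QA) (polarBilin QB)) (h2 : (2 : F) ≠ 0)
    {U : Submodule F B} (hU : ∀ u ∈ U, QB u = 0) : ∀ v ∈ Submodule.map₂ T ⊤ U, Q v = 0 := by
  rw [Submodule.map₂_eq_span_image2]
  refine singular_span ?_ ?_
  · rintro _ ⟨x, -, y, hy, rfl⟩
    rw [h.Q_eq h2, hU y hy, mul_zero]
  · rintro _ ⟨x, -, y, hy, rfl⟩ _ ⟨x', -, y', hy', rfl⟩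
    rw [h.polar_eq', polar_eq_zero_of_forall hU hy hy', mul_zero]

variable [FiniteDimensional F V] [Finite F]

theorem exists_tri {QA : QuadraticForm F A} (hA : (polarBilin QA).Nondegenerate)
    (h3 : 3 ≤ finrank F A) : ∃ e f w, QA e = 0 ∧ QA f = 0 ∧ polar QA e f = 1 ∧ polar QA e w = 0 ∧
      polar QA f w = 0 ∧ QA w ≠ 0 := by
  obtain ⟨e, -, f, -, w, -, h⟩ := tri_of_three_le (disjoint_top_orth hA) (by rwa [finrank_top])
  exact ⟨e, f, w, h⟩

omit [FiniteDimensional F V] in
/-- Singular vectors which are, and are not, pure tensors. -/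
theorem exists_singular (h : Tens Q T (polarBilin QA) (polarBilin QB)) (h2 : (2 : F) ≠ 0)
    (hA : 3 ≤ finrank F A) (hB : 3 ≤ finrank F B) :
    (∃ x y, T x y ≠ 0 ∧ Q (T x y) = 0) ∧ ∃ w, w ≠ 0 ∧ Q w = 0 ∧ ∀ x y, w ≠ T x y := by
  obtain ⟨e, f, w, he, hf, hef, hew, hfw, hw⟩ := exists_tri h.ndf hA
  obtain ⟨e', f', -, he', hf', hef', -⟩ := exists_tri h.ndg hB
  have he0 : e ≠ 0 := by rintro rfl; simp at hef
  have hf0 : f' ≠ 0 := by rintro rfl; simp at hef'
  have H := h.not_pure (x₁ := w) (x₂ := e) (y₁ := e') (y₂ := f')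
    (li_of_bilin (f := polarBilin QA) (w := w) he0
      (by simpa [polar_self'] using mul_ne_zero h2 hw) hew)
    (li_of_bilin (f := polarBilin QB) (w := f') hf0 (by simp [hef']) (by simp [polar_self', hf']))
  refine ⟨⟨e, f', h.ne_zero he0 hf0, by rw [h.Q_eq h2, he]; ring⟩, _,
    fun h0 => H 0 0 (by rw [h0]; simp), ?_, H⟩
  rw [Q_add, h.Q_eq h2, h.Q_eq h2, h.polar_eq', he, he', pc hew]; ring

/-- The type of the tensor product with a space of dimension three. -/
theorem isPlus_iff (h : Tens Q T (polarBilin QA) (polarBilin QB))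
    (hQ : (polarBilin Q).Nondegenerate) (h2 : (2 : F) ≠ 0)
    (hA : finrank F A = 3) (hB : Even (finrank F B)) : Known.IsPlus Q ↔ Known.IsPlus QB := by
  obtain ⟨e, f, w, he, hf, hef, hew, hfw, hw⟩ := exists_tri h.ndf hA.ge
  have he0 : e ≠ 0 := by rintro rfl; simp at hef
  have hw0 : w ≠ 0 := by rintro rfl; simp at hw
  have hd := h.dim
  have h3 := LinearMap.finrank_range_of_inj (h.injective hw0)
  have h4 := finrank_orth hQ (LinearMap.range (T w))
  have h5 : Disjoint (LinearMap.range (T w)) (orth Q (LinearMap.range (T w))) := by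
    refine Submodule.disjoint_def.2 ?_
    rintro _ ⟨y, rfl⟩ hy
    rw [h.ndg.2 y fun y' => ?_, map_zero]
    have := mem_orth.1 hy _ ⟨y', rfl⟩
    rw [h.polar_eq', polar_self'] at this
    exact (mul_eq_zero.1 this).resolve_left (mul_ne_zero h2 hw)
  rw [isPlus_iff_orth hQ h5 (by rwa [h3]) (by rw [hd]; exact hB.mul_left _),
    Known.isPlus_congr (Q := QB) (LinearEquiv.ofInjective _ (h.injective hw0))
      (mul_ne_zero h2 hw) (fun y => h.Q_eq h2 w y)]
  refine (iff_true_right (isPlus_restrict_iff.2 ⟨LinearMap.range (T e), ?_, ?_, ?_⟩))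
  · rintro _ ⟨y, rfl⟩ _ ⟨y', rfl⟩
    change polar Q _ _ = 0
    rw [h.polar_eq', pc hew, zero_mul]
  · rintro _ ⟨y, rfl⟩
    rw [h.Q_eq h2, he]; ring
  · rw [LinearMap.finrank_range_of_inj (h.injective he0)]
    rw [hA] at hd
    omega

omit [Finite F] in
/-- A factor of dimension three over the field with three elements. -/
theorem notMaxOm_three [Fintype F] (h : Tens Q T (polarBilin QA) (polarBilin QB))
    (hQ : (polarBilin Q).Nondegenerate) (hq : Fintype.card F = 3)
    (hA : finrank F A = 3) (hB : 3 ≤ finrank F B) : NotMaxOm Q (tensG T) := by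
  have h2 : (2 : F) ≠ 0 := fun h2 => one_ne_zero (α := F) (by
    have h3 : (3 : F) = 0 := by simpa using natCast_card_eq_zero hq
    linear_combination h3 - h2)
  have hd := h.dim
  rw [hA] at hd
  have : Nontrivial B := Module.nontrivial_of_finrank_pos (R := F) (by omega)
  obtain ⟨c, hc, H⟩ := exists_aniso_perp hq (disjoint_top_orth h.ndf) (by rwa [finrank_top])
  obtain ⟨x₁, hx₁⟩ := Known.exists_quad_eq h.ndf (by omega) c
  have hx0 : x₁ ≠ 0 := by rintro rfl; exact hc (by simpa using hx₁.symm)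
  have hdis : Disjoint (Submodule.span F {x₁}) (orth QA (Submodule.span F {x₁})) := by
    refine (Submodule.disjoint_span_singleton' hx0).2 ?_ |>.symm
    rw [mem_orth_singleton, polar_self', hx₁]; exact mul_ne_zero h2 hc
  obtain ⟨x₂, hx₂, hx₂'⟩ := exists_norm_mem (restrict_nondeg_iff.1 (restrict_orth_nondeg h.ndf hdis))
    (by have := finrank_orth h.ndf (Submodule.span F {x₁}); rw [finrank_span_singleton hx0] at this
        omega) c
  have h12 := mem_orth_singleton.1 hx₂
  have hli : LinearIndependent F ![x₁, x₂] := li_of_bilin (f := polarBilin QA) (w := x₁)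
    (by rintro rfl; exact hc (by simpa using hx₂'.symm))
    (by simpa [polar_self', hx₁] using mul_ne_zero h2 hc) (pc h12)
  obtain ⟨e, f, w, he, hf, hef, hew, hfw, hw⟩ := exists_tri h.ndg hB
  have he0 : e ≠ 0 := by rintro rfl; simp at hef
  have hp : Q (T x₁ e) = 0 := by rw [h.Q_eq h2, he, mul_zero]
  have hpw : polar Q (T x₁ e) (T x₁ w) = 0 := by rw [h.polar_eq', hew, mul_zero]
  refine notMaxOm_of_set {v | ∃ x y, QA x = c ∧ v = T x y} ?_
    ⟨eich Q (T x₁ e) (T x₁ w), eich_mem_Om hQ (by omega) _ _, ?_, ?_⟩ ?_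
  · rintro k - ⟨a, b, hab⟩ _ ⟨x, y, hx, rfl⟩
    refine ⟨a x, b y, ?_, hab x y⟩
    obtain ⟨m, hm⟩ := h.exists_mul hab
    have h3 : ∀ x, QA (a.symm x) = m * QA x := fun x => mul_left_cancel₀ h2 (by
      have := hm (a.symm x) (a.symm x)
      simp only [polarBilin_apply_apply, LinearEquiv.apply_symm_apply, polar_self'] at this
      linear_combination this)
    obtain ⟨s, hs, h4⟩ := Known.sqEq_disc_of_sim a.symm h3
    have h5 := mul_self_eq_one_of_card_le hq.le hs
    rw [hA, ← mul_assoc, eq_comm, mul_eq_right₀ (Known.disc_ne_zero h.ndf), pow_two, h5] at h4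
    have h6 := mul_self_eq_one_of_card_le hq.le (a := m) (by rintro rfl; simp at h4)
    have h7 := h3 (a x)
    rw [LinearEquiv.symm_apply_apply, hx, show m = 1 by linear_combination h4 - m * h6] at h7
    linear_combination -h7
  · rintro _ ⟨x, y, hx, rfl⟩
    have key : ∀ y, ∃ y', (eich Q (T x₁ e) (T x₁ w)).1 (T x₁ y) = T x₁ y' := fun y =>
      (eich_apply_mem (S := LinearMap.range (T x₁)) le_rfl ⟨e, rfl⟩ ⟨w, rfl⟩ ⟨y, rfl⟩).imp
        fun _ => Eq.symm
    rcases frame_of_three hq hc H Submodule.mem_top Submodule.mem_top hx hx₁ with rfl | rfl | h3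
    · obtain ⟨y', hy⟩ := key y
      exact ⟨x, y', hx, hy⟩
    · obtain ⟨y', hy⟩ := key (-y)
      exact ⟨x₁, y', hx₁, by simpa using hy⟩
    · exact ⟨x, y, hx, eich_apply_of_orth_orth (by rw [h.polar_eq', h3, zero_mul])
        (by rw [h.polar_eq', h3, zero_mul])⟩
  · have h3 : polar Q (T x₁ w) (T x₁ w) ≠ 0 := by
      rw [h.polar_eq', polar_self', polar_self', hx₁]
      exact mul_ne_zero (mul_ne_zero h2 hc) (mul_ne_zero h2 hw)
    refine h.notMem_of_apply (x := x₁ + x₂) (y := w) (y₁ := w + polar Q (T x₁ w) (T x₁ w) • e)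
      (y₂ := w) hli (li_of_bilin (f := polarBilin QB) (w := f) (by rintro rfl; simp at hw)
        (by simpa [pc hfw, hef] using h3) (pc hfw)) ?_
    rw [map_add, LinearMap.add_apply, map_add, eich_apply_of_orth hp hpw (pc hpw),
      eich_apply_of_orth_orth (by rw [h.polar_eq', pc h12, zero_mul])
        (by rw [h.polar_eq', pc h12, zero_mul]), map_add, map_smul]
  · have H := h.not_pure hli (y₁ := e) (y₂ := f) (li_of_bilin (f := polarBilin QB) (w := f)
      (by rintro rfl; simp at hef) (by simp [hef]) (by simp [polar_self', hf]))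
    obtain ⟨k, hk, hk'⟩ := exists_Om_apply_eq hQ (by omega) (h.ne_zero hx0 he0)
      (w := T x₁ e + T x₂ f) (fun h0 => H 0 0 (by rw [h0]; simp)) hp
      (by rw [Q_add, hp, h.Q_eq h2, h.polar_eq', hf, h12]; ring)
    exact ⟨k, hk, _, ⟨x₁, e, hx₁, rfl⟩, fun ⟨x, y, _, h3⟩ => H x y (hk'.symm.trans h3)⟩

/-- A factor of odd dimension and a factor of dimension four and plus type. -/
theorem notMaxOm_four (h : Tens Q T (polarBilin QA) (polarBilin QB))
    (hQ : (polarBilin Q).Nondegenerate) (h2 : (2 : F) ≠ 0) (hA : 3 ≤ finrank F A)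
    (hA' : Odd (finrank F A)) (hB : finrank F B = 4) (hp : Known.IsPlus QB) :
    NotMaxOm Q (tensG T) := by
  have hd := h.dim
  rw [hB] at hd
  have : Nontrivial A := Module.nontrivial_of_finrank_pos (R := F) (by omega)
  obtain ⟨m, e', f', hh, hm⟩ := hp.exists_isHyp h.ndg
  obtain rfl : m = 2 := by omega
  obtain ⟨e, f, w, he, hf, hef, hew, hfw, hw⟩ := exists_tri h.ndf hA
  have he0 : e ≠ 0 := by rintro rfl; simp at hef
  have q1 := hh.qe 0
  have q2 := hh.qe 1
  have q3 := hh.qf 0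
  have q4 := hh.qf 1
  have r1 := hh.ee 0 1
  have r2 := hh.ff 0 1
  have r3 : polar QB (e' 0) (f' 0) = 1 := by simpa using hh.ef 0 0
  have r4 : polar QB (e' 1) (f' 1) = 1 := by simpa using hh.ef 1 1
  have r5 : polar QB (e' 0) (f' 1) = 0 := by simpa using hh.ef 0 1
  have r6 : polar QB (e' 1) (f' 0) = 0 := by simpa using hh.ef 1 0
  have h0 : e' 0 ≠ 0 := fun h => by simp [h] at r3
  set U₀ := Submodule.span F {e' 0, e' 1}
  have hU₀ : finrank F U₀ = 2 := finrank_span_pair ((li_of_bilin (f := polarBilin QB) (w := f' 0)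
    (fun h => by simp [h] at r4) (by simp [r3]) r6))
  have hs₀ : ∀ u ∈ U₀, QB u = 0 := singular_span (by rintro _ (rfl | rfl) <;> assumption) (by
    rintro _ (rfl | rfl) _ (rfl | rfl) <;> simp [polar_self', q1, q2, r1, pc r1])
  have hp₁ : Q (T e (e' 0)) = 0 := by rw [h.Q_eq h2, he]; ring
  have hp₂ : Q (T e (f' 1)) = 0 := by rw [h.Q_eq h2, he]; ring
  have hp₃ : polar Q (T e (e' 0)) (T e (f' 1)) = 0 := by rw [h.polar_eq', r5, mul_zero]
  refine notMaxOm_of_set {v | ∃ U : Submodule F B, (∀ u ∈ U, QB u = 0) ∧ finrank F U = 2 ∧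
      (∃ k ∈ commutator (O Q), Submodule.map₂ T ⊤ U = (Submodule.map₂ T ⊤ U₀).map k.1.toLinearMap) ∧
      v ∈ Submodule.map₂ T ⊤ U} ?_
    ⟨eich Q (T e (e' 0)) (T e (f' 1)), eich_mem_Om hQ (by omega) _ _, ?_, ?_⟩ ?_
  · rintro k hk ⟨a, b, hab⟩ v ⟨U, hU, hU', ⟨l, hl, hl'⟩, hv⟩
    refine ⟨U.map b.toLinearMap, ?_, by rwa [LinearEquiv.finrank_map_eq], ⟨k * l, mul_mem hk hl, ?_⟩,
      map_map₂_of_eq hab U ▸ ⟨v, hv, rfl⟩⟩
    · rintro _ ⟨y, hy, rfl⟩
      have h3 := O_map k (T (a.symm w) y)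
      rw [hab, h.Q_eq h2, h.Q_eq h2, hU y hy, mul_zero, LinearEquiv.apply_symm_apply] at h3
      exact (mul_eq_zero.1 h3).resolve_left (mul_ne_zero h2 hw)
    · rw [← map_map₂_of_eq hab, hl', map_O_mul]
  · rintro v ⟨U, hU, hU', ⟨l, hl, hl'⟩, hv⟩
    refine ⟨U, hU, hU', ⟨l, hl, hl'⟩, ?_⟩
    have h3 := Known.dick_eq_of_maxSingular hQ (not_exc_of_finrank (by omega))
      (m := finrank F A * 2) (by omega) (by rw [h.finrank_map₂, hU₀]) (h.singular_map₂ h2 hs₀) l
    rw [dick_eq_one_of_mem_Om hQ (by omega) hl, ← hl', h.finrank_inf] at h3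
    have h4 : finrank F (U₀ ⊓ U : Submodule F B) ≤ 2 := hU₀ ▸ Submodule.finrank_mono inf_le_left
    have h5 := Submodule.finrank_sup_add_finrank_inf_eq U₀ U
    have hX := h.singular_map₂ h2 hU
    rcases (by omega : finrank F (U₀ ⊓ U : Submodule F B) = 2 ∨
      finrank F (U₀ ⊓ U : Submodule F B) = 1 ∨ finrank F (U₀ ⊓ U : Submodule F B) = 0) with
      h6 | h6 | h6
    · have h7 : U₀ ⊓ U = U₀ := Submodule.eq_of_le_of_finrank_eq inf_le_left (by omega)
      exact (eich_mem_stab_of_singular hX (Submodule.apply_mem_map₂ _ trivial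
        (inf_eq_left.1 h7 (Submodule.subset_span (by simp)))) _ v).1 hv
    · rw [h6, show finrank F A * 2 - finrank F A * 1 = finrank F A by omega, hA'.neg_one_pow] at h3
      exact absurd h3 (by decide)
    · have h7 : U₀ ⊔ U = ⊤ := Submodule.eq_top_of_finrank_eq (by omega)
      obtain ⟨a, ha, u, hu, h8⟩ := Submodule.mem_sup.1 (h7 ▸ Submodule.mem_top : f' 1 ∈ U₀ ⊔ U)
      obtain ⟨s, t, rfl⟩ := Submodule.mem_span_pair.1 ha
      obtain rfl : u = f' 1 - (s • e' 0 + t • e' 1) := by rw [← h8]; abel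
      have h9 := hU _ hu
      qsimp_at h9
      rw [q1, q2, q4, r1, pc r4, pc r5] at h9
      obtain rfl : t = 0 := by linear_combination -h9
      rw [zero_smul, add_zero] at hu
      have h10 : T e (f' 1 - s • e' 0) ∈ Submodule.map₂ T ⊤ U :=
        Submodule.apply_mem_map₂ _ trivial hu
      have h11 := polar_eq_zero_of_forall hX hv h10
      rw [map_sub, map_smul] at h10 h11
      rw [polar_sub_right, polar_smul_right', sub_eq_zero] at h11
      rw [eich_apply_long hp₁ hp₂ hp₃, h11, show ∀ (a : F) (x y : V), (s * a) • x - a • y =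
        (-a) • (y - s • x) from fun _ _ _ => by module]
      exact Submodule.add_mem _ hv (Submodule.smul_mem _ _ h10)
  · refine h.notMem_of_apply (x := f) (y := f' 0) (x₁ := f) (x₂ := -e) (y₁ := f' 0) (y₂ := f' 1)
      (li_of_bilin (f := polarBilin QA) (w := e) (neg_ne_zero.2 he0) (by simp [pc hef])
        (by simp [polar_self', he]))
      (li_of_bilin (f := polarBilin QB) (w := e' 0) (fun h => by simp [h] at r4) (by simp [pc r3])
        (pc r5)) ?_
    rw [eich_apply_long hp₁ hp₂ hp₃, h.polar_eq', h.polar_eq', r2, pc hef, pc r3]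
    simp
  · have hli : LinearIndependent F ![w, e] := li_of_bilin (f := polarBilin QA) (w := w) he0
      (by simpa [polar_self'] using mul_ne_zero h2 hw) hew
    have H := h.not_pure hli (y₁ := e' 0) (y₂ := f' 0) (li_of_bilin (f := polarBilin QB) (w := f' 0)
      (fun h => by simp [h] at r3) (by simp [r3]) (by simp [polar_self', q3]))
    obtain ⟨k, hk, hk'⟩ := exists_Om_apply_eq hQ (by omega) (h.ne_zero he0 h0)
      (w := T w (e' 0) + T e (f' 0)) (fun h0 => H 0 0 (by rw [h0]; simp)) hp₁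
      (by rw [Q_add, h.Q_eq h2, h.Q_eq h2, h.polar_eq', he, q1, pc hew]; ring)
    refine ⟨k, hk, T e (e' 0), ⟨U₀, hs₀, hU₀, ⟨1, one_mem _, (map_O_one _).symm⟩,
      Submodule.apply_mem_map₂ _ trivial (Submodule.subset_span (by simp))⟩, ?_⟩
    rintro ⟨U, hU, hU', -, hv⟩
    rw [hk'] at hv
    have h3 : orth QB U = U := (Submodule.eq_of_le_of_finrank_eq (le_orth_of_forall hU)
      (by have := finrank_orth h.ndg U; omega)).symm
    have key : ∀ s t : F, s • e' 0 + t • f' 0 ∈ U := fun s t => by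
      obtain ⟨x, x1, x2⟩ := exists_polar_pair h.ndf hli s t
      rw [← h3, mem_orth']
      intro u hu
      have := polar_eq_zero_of_forall (h.singular_map₂ h2 hU) hv
        (Submodule.apply_mem_map₂ T (m := x) trivial hu)
      rw [polar_add_left, h.polar_eq', h.polar_eq', x1, x2] at this
      qsimp
      exact this
    have := hU _ (key 1 1)
    qsimp_at this
    simp [q1, q3, r3] at this

end Sym

section Alt

variable [FiniteDimensional F V]

theorem exists_alt_data (hg : g.Nondegenerate) (ha : g.IsAlt)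
    (hB : 3 ≤ finrank F B) :
    ∃ y₁ y₂ y : B, y₂ ≠ 0 ∧ g y₁ y₂ = 0 ∧ g y y₁ = 1 ∧ g y y₂ = 0 := by
  have : Nontrivial B := Module.nontrivial_of_finrank_pos (R := F) (by omega)
  obtain ⟨y₂, h2⟩ := exists_ne (0 : B)
  obtain ⟨y₁, hy, hy'⟩ := exists_mem_notMem_of_finrank_lt (H := Submodule.span F {y₂})
    (W := LinearMap.ker (g y₂)) (by
      have h1 := (g y₂).finrank_range_add_finrank_ker
      have h3 := (LinearMap.range (g y₂)).finrank_le
      rw [finrank_span_singleton h2]
      rw [finrank_self] at h3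
      omega)
  have hli : LinearIndependent F ![y₂, y₁] := by
    rw [LinearIndependent.pair_iff' h2]
    exact fun a ha => hy' (ha ▸ Submodule.smul_mem _ _ (Submodule.mem_span_singleton_self _))
  obtain ⟨y, a1, a2⟩ := exists_bilin_pair hg hli 0 (-1)
  exact ⟨y₁, y₂, y, h2, ha.isRefl _ _ hy, by rw [← ha.neg_eq, a2, neg_neg], ha.isRefl _ _ a1⟩

omit [FiniteDimensional F V] in
theorem exists_singular_alt (h : Tens Q T f g) (hg : g.IsAlt) (h0 : ∀ x y, Q (T x y) = 0)
    (hA : 2 ≤ finrank F A) (hB : 3 ≤ finrank F B) :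
    (∃ x y, T x y ≠ 0) ∧ ∃ w, w ≠ 0 ∧ Q w = 0 ∧ ∀ x y, w ≠ T x y := by
  obtain ⟨y₁, y₂, y, a1, a2, a3, a4⟩ := exists_alt_data h.ndg hg hB
  have : Nontrivial A := Module.nontrivial_of_finrank_pos (R := F) (by omega)
  obtain ⟨x₁, hx⟩ := exists_ne (0 : A)
  obtain ⟨x₂, hx'⟩ := exists_linearIndependent_pair_of_one_lt_finrank (R := F) (by omega) hx
  have H := h.not_pure hx' (li_of_bilin (f := g) (u := y₁) (w := y) a1
    (by rw [← hg.neg_eq, a3]; simp) (hg.isRefl _ _ a4))
  exact ⟨⟨x₁, y₂, h.ne_zero hx a1⟩, _, fun h0 => H 0 0 (by rw [h0]; simp),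
    by rw [Q_add, h0, h0, h.polar_eq, a2]; ring, H⟩

/-- A symplectic factor of dimension two over the field with two elements. -/
theorem notMaxOm_two [Fintype F] (h : Tens Q T f g) (hQ : (polarBilin Q).Nondegenerate)
    (hq : Fintype.card F = 2) (hf : f.IsAlt) (hg : g.IsAlt) (h0 : ∀ x y, Q (T x y) = 0)
    (hA : finrank F A = 2) (hB : 3 ≤ finrank F B) : NotMaxOm Q (tensG T) := by
  have h2 : (2 : F) = 0 := by simpa using natCast_card_eq_zero hq
  have h11 : (1 : F) + 1 = 0 := by linear_combination h2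
  have h01 : ∀ x : F, x = 0 ∨ x = 1 := fun x =>
    or_iff_not_imp_left.2 fun hx => by simpa using pow_eq_one_of_card (k := 1) hq hx
  have hV2 : ∀ x : V, x + x = 0 := fun x => by rw [← two_smul F, h2, zero_smul]
  have hA2 : ∀ x : A, x + x = 0 := fun x => by rw [← two_smul F, h2, zero_smul]
  have hd := h.dim
  rw [hA] at hd
  have : Nontrivial A := Module.nontrivial_of_finrank_pos (R := F) (by omega)
  have : Nontrivial B := Module.nontrivial_of_finrank_pos (R := F) (by omega)
  obtain ⟨x₁, hx⟩ := exists_ne (0 : A)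
  obtain ⟨x₂, h12⟩ : ∃ x₂, f x₁ x₂ = 1 := by
    by_contra! hc; exact hx (h.ndf.1 _ fun y => (h01 _).resolve_right (hc y))
  have h21 : f x₂ x₁ = 1 := by rw [← hf.neg_eq, h12]; linear_combination -h2
  have h1 : f x₁ x₁ = 0 := hf x₁
  have h22 : f x₂ x₂ = 0 := hf x₂
  have hli : LinearIndependent F ![x₁, x₂] :=
    li_of_bilin (w := x₂) (by rintro rfl; simp at h12) (by simp [h12]) h22
  have hco : ∀ x : A, ∃ s t : F, x = s • x₁ + t • x₂ := fun x => by
    have := Submodule.eq_top_of_finrank_eq ((finrank_span_pair hli).trans hA.symm)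
    obtain ⟨s, t, h⟩ := Submodule.mem_span_pair.1 (this ▸ Submodule.mem_top : x ∈ _)
    exact ⟨s, t, h.symm⟩
  let ω : A →ₗ[F] A := (f x₂).smulRight x₂ + (f x₁).smulRight (x₁ + x₂)
  have w1 : ω x₁ = x₂ := by simp [ω, h21, h1]
  have w2 : ω x₂ = x₁ + x₂ := by simp [ω, h12, h22]
  obtain ⟨J, hJ⟩ := h.exists_map ω LinearMap.id
  simp only [LinearMap.id_apply] at hJ
  have hJ2 : ∀ v, J (J v) = J v + v := by
    refine h.ext (by simp) (fun u v hu hv => by simp only [map_add, hu, hv]; abel) fun x y => ?_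
    obtain ⟨s, t, rfl⟩ := hco x
    rw [hJ, hJ, ← LinearMap.add_apply, ← map_add]
    congr 2
    simp only [map_add, map_smul, w1, w2]
    module
  have hJp : ∀ u v, polar Q (J u) v = polar Q u (J v) + polar Q u v := by
    intro u v
    induction u using h.ext with
    | h0 => simp
    | hadd a b ha hb => simp only [map_add, polar_add_left, ha, hb]; ring
    | hT x y =>
      induction v using h.ext with
      | h0 => simp
      | hadd a b ha hb => simp only [map_add, polar_add_right, ha, hb]; ring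
      | hT x' y' =>
        obtain ⟨s, t, rfl⟩ := hco x
        obtain ⟨s', t', rfl⟩ := hco x'
        rw [hJ, hJ, h.polar_eq, h.polar_eq, h.polar_eq]
        simp only [map_add, map_smul, w1, w2, LinearMap.add_apply, LinearMap.smul_apply, h1, h12,
          h21, h22, smul_eq_mul]
        linear_combination (-(g y y') * (s * t')) * h2
  let N : Subgroup (V ≃ₗ[F] V) :=
    { carrier := {k | ∃ c : F, ∀ v, k (J v) = J (k v) + c • k v}
      mul_mem' := by
        rintro k l ⟨c, hc⟩ ⟨d, hd⟩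
        exact ⟨c + d, fun v => by simp [hc, hd, add_smul, add_assoc]⟩
      one_mem' := ⟨0, by simp⟩
      inv_mem' := by
        rintro k ⟨c, hc⟩
        exact ⟨-c, fun v => k.injective (by simp [hc])⟩ }
  refine ⟨N, ?_, ?_, ?_⟩
  · rintro k - ⟨a, b, hab⟩
    obtain ⟨m, hm⟩ := h.exists_mul hab
    obtain ⟨α, β, h3⟩ := hco (a x₁)
    obtain ⟨γ, δ, h4⟩ := hco (a x₂)
    have h5 := hm x₁ x₂
    obtain ⟨c, c1, c2⟩ : ∃ c : F, a x₂ = ω (a x₁) + c • a x₁ ∧
        a x₁ + a x₂ = ω (a x₂) + c • a x₂ := by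
      rw [h3, h4] at h5 ⊢
      simp only [map_add, map_smul, w1, w2, LinearMap.add_apply, LinearMap.smul_apply, h1, h12,
          h21, h22, smul_eq_mul] at h5 ⊢
      have hA3 : ∀ x y : A, x + (x + y) = y := fun x y => by rw [← add_assoc, hA2, zero_add]
      refine ⟨α * γ + α * δ + β * δ + 1, ?_⟩
      rcases h01 α with rfl | rfl <;> rcases h01 β with rfl | rfl <;>
        rcases h01 γ with rfl | rfl <;> rcases h01 δ with rfl | rfl <;>
        simp [h11, hA2, hA3, add_comm, add_left_comm] at h5 ⊢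
    refine ⟨c, h.ext (by simp) (fun u v hu hv => by simp only [map_add, hu, hv, smul_add]; abel)
      fun x y => ?_⟩
    obtain ⟨s, t, rfl⟩ := hco x
    rw [hJ, hab, hab, hJ, ← LinearMap.smul_apply, ← map_smul, ← LinearMap.add_apply, ← map_add]
    congr 2
    simp only [map_add, map_smul, w1, w2]
    linear_combination (norm := module) s • c1 + t • c2
  · obtain ⟨y₁, y₂, y, a1, a2, a3, a4⟩ := exists_alt_data h.ndg hg hB
    have a5 := hg.isRefl _ _ a2
    set v := T x₁ y₁ + T x₂ y₂ with hv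
    have hJv : J v = T x₂ y₁ + T (x₁ + x₂) y₂ := by rw [hv, map_add, hJ, hJ, w1, w2]
    have q1 : Q v = 0 := by rw [hv, Q_add, h0, h0, h.polar_eq, a2]; ring
    have q2 : Q (J v) = 0 := by rw [hJv, Q_add, h0, h0, h.polar_eq, a2]; ring
    have q3 : polar Q v (J v) = 0 := by
      rw [hJv, hv]
      simp [polar_add_left, polar_add_right, h.polar_eq, a2, a5, hg y₁, hg y₂]
    refine ⟨eich Q v (J v), eich_mem_Om hQ (by omega) _ _, ⟨0, fun u => ?_⟩, ?_⟩
    · rw [eich_apply_long q1 q2 q3, eich_apply_long q1 q2 q3, hJp, hJp]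
      simp only [map_add, map_sub, map_smul, hJ2, polar_add_right]
      linear_combination (norm := module) (polar Q u (J v) + polar Q u v) • hV2 v
        - polar Q u (J v) • hV2 (J v)
    · refine h.notMem_of_apply (x := x₁) (y := y) (y₁ := y + y₁) (y₂ := y₂) hli
        (li_of_bilin (f := g) (w := y₁) a1 (by simp [a3, hg y₁]) a5) ?_
      rw [eich_apply_long q1 q2 q3, hJv, hv]
      simp [polar_add_right, h.polar_eq, a3, a4, h12, h1, add_assoc]
  · by_contra! hc
    obtain ⟨p, hp, c, h3⟩ := exists_eigen_of_eich hQ (by omega) J fun p w => by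
      obtain ⟨c, h3⟩ := hc _ (eich_mem_Om hQ (by omega) p w)
      rcases h01 c with rfl | rfl
      · exact Or.inl fun v => by simpa using h3 v
      · exact Or.inr fun v hv => by simpa [hv] using h3 v
    have h4 := hJ2 p
    rw [h3, map_smul, h3] at h4
    rcases h01 c with rfl | rfl <;> exact hp (by simpa using h4.symm)

end Alt

end Tens

end Cfsg.Lib.Class.AO
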